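import Cfsg.Agent.Lib.J2Ico.InvolutionData
import Cfsg.Agent.Lib.J2Ico.Count
import Cfsg.Agent.Lib.J2Ico.Group
import Cfsg.Agent.Lib.Minimal.ThreeBlockMonomial

/-!
The centraliser of a reflection in the Hall–Janko group: an extraspecial group of order 32 extended
by the alternating group of degree five.
-/

set_option autoImplicit false
set_option maxRecDepth 100000

namespace CfsgLib.J2Ico.Involution

open CfsgLib.Mathieu CfsgLib.Mathieu.GraphAut CfsgLib.Mathieu.RankThree CfsgLib.Mathieu.J2Cert
  CfsgLib.Mathieu.J2

/-- The code of the first seed. -/
def tCode : ℕ := setGens.getD 0 0

/-- Whether the listed generators are elements of the group commuting with the seed. -/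
def gensOk : List ℕ → List (List ℕ) → List (List ℕ) → Bool
  | [], [], [] => true
  | c :: cs, w :: ws, p :: ps => isPerm7 100 c && wordValid gensP w &&
      ((List.range 100).all fun x => app7 c x == word7 gensP w x &&
        app7 c (app7 tCode x) == app7 tCode (app7 c x) &&
        blockLabel.getD (app7 c x) 0 == p.getD (blockLabel.getD x 0) 5) &&
      gensOk cs ws ps
  | _, _, _ => false

theorem gens_ok : gensOk centGens centGenWords blockPerms = true := by decide +kernel

theorem blocks_ok : ((List.range 5).all fun k => (List.range 100).any fun x =>
    blockLabel.getD x 0 == k) = true := by decide +kernel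

/-- The action on a label along a word. -/
def wordBlock : List ℕ → ℕ → ℕ
  | [], x => x
  | i :: w, x => (blockPerms.getD i []).getD (wordBlock w x) 5

/-- Whether the listed kernel elements are the words and fix all labels. -/
def kerOk : List ℕ → List (List ℕ) → Bool
  | [], [] => true
  | c :: cs, w :: ws => wordValid centGens w &&
      ((List.range 100).all fun x => app7 c x == word7 centGens w x) &&
      ((List.range 5).all fun k => wordBlock w k == k) && kerOk cs ws
  | _, _ => false

theorem ker_ok : kerOk kerCodes kerWords = true := by decide +kernel

/-- A key of a code on the base points. -/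
def baseKey (c : ℕ) : List ℕ := [0, 1, 21, 25, 20].map (app7 c)

theorem ker_distinct : decide (kerCodes.map baseKey).Nodup = true := by decide +kernel

theorem ker_length : kerCodes.length = 32 := by decide +kernel

theorem ker_squares : (kerCodes.all fun c =>
    ((List.range 100).all fun x => app7 c (app7 c x) == x) ||
      (List.range 100).all fun x => app7 c (app7 c x) == app7 tCode x) = true := by decide +kernel

theorem ker_centre : (kerCodes.all fun c =>
    ((List.range 100).all fun x => app7 c x == x) ||
      ((List.range 100).all fun x => app7 c x == app7 tCode x) ||
      kerCodes.any fun d => (List.range 100).any fun x =>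
        app7 c (app7 d x) != app7 d (app7 c x)) = true := by decide +kernel

theorem t_moves : ((List.range 100).any fun x => app7 tCode x != x) = true := by decide +kernel

theorem t_mem_ker : (kerCodes.any fun c => (List.range 100).all fun x =>
    app7 c x == app7 tCode x) = true := by decide +kernel

theorem conj_perm : (conjCodes.all (isPerm7 100)) = true := by decide +kernel

theorem conj_tree : ((List.range 315).all fun j =>
    let q := conjTree.getD j (0, 0)
    let u := conjCodes.getD j 0
    (decide (j = 0) && (List.range 100).all fun x => app7 u x == app7 tCode x) ||
    (decide (q.1 < j) && decide (q.2 < 4) && (List.range 100).all fun x =>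
      app7 u (app7 (setGens.getD q.2 0) x) ==
        app7 (setGens.getD q.2 0) (app7 (conjCodes.getD q.1 0) x))) = true := by decide +kernel

theorem conj_distinct : decide (conjCodes.map baseKey).Nodup = true := by decide +kernel

theorem conj_length : conjCodes.length = 315 := by decide +kernel

theorem alt_check : decide (∀ σ : Equiv.Perm (Fin 5), Equiv.Perm.sign σ = 1 →
    ∃ w ∈ altWords, ∀ k : Fin 5, (σ k).1 = wordBlock w k.1) = true := by decide +kernel

theorem alt_valid : (altWords.all (wordValid centGens)) = true := by decide +kernel

theorem blockPerms_even : decide (∀ i : Fin 2, ∃ π : Equiv.Perm (Fin 5),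
    Equiv.Perm.sign π = 1 ∧ ∀ k : Fin 5, (π k).1 = (blockPerms.getD i.1 []).getD k.1 5) = true := by
  decide +kernel

end CfsgLib.J2Ico.Involution
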