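import Cfsg.Agent.Lib.J2Ico.Involution
import Cfsg.Agent.Lib.PGroups.Extraspecial

/-!
The structure of the centraliser of a reflection in the Hall–Janko group, from the certificates.
-/

set_option autoImplicit false

namespace CfsgLib.J2Ico.Involution

open CfsgLib.Mathieu CfsgLib.Mathieu.GraphAut CfsgLib.Mathieu.RankThree CfsgLib.Mathieu.J2Cert
  CfsgLib.Mathieu.J2

/-- The seed in the permutation group. -/
noncomputable def tPerm : Equiv.Perm (Fin 100) := perm7 100 tCode

theorem tCode_perm : isPerm7 100 tCode = true := setGens_perm _ (setGens_mem 0)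

theorem setGens_in (k : Fin 4) : perm7 100 (setGens.getD k.1 0) ∈ j2Group := by
  rw [← range_setHom]; exact ⟨seedG k, setHom_seed k⟩

theorem tPerm_mem : tPerm ∈ j2Group := setGens_in 0

theorem getD_of_gensOk : ∀ {cs : List ℕ} {ws ps : List (List ℕ)}, gensOk cs ws ps = true →
    ∀ c ∈ cs, ∃ i, i < cs.length ∧ cs.getD i 0 = c ∧ isPerm7 100 c = true ∧
      perm7 100 c ∈ j2Group ∧ (∀ x < 100, app7 c (app7 tCode x) = app7 tCode (app7 c x)) ∧
      ∀ x < 100, blockLabel.getD (app7 c x) 0 = (ps.getD i []).getD (blockLabel.getD x 0) 5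
  | [], _, _, _, c, hc => by simp at hc
  | d :: cs, [], _, h, _, _ => by simp [gensOk] at h
  | d :: cs, _ :: _, [], h, _, _ => by simp [gensOk] at h
  | d :: cs, w :: ws, p :: ps, h, c, hc => by
    simp only [gensOk, Bool.and_eq_true, List.all_eq_true, List.mem_range, beq_iff_eq] at h
    rcases List.mem_cons.1 hc with rfl | hc
    · refine ⟨0, by simp, rfl, h.1.1.1, ?_, fun x hx => (h.1.2 x hx).1.2,
        fun x hx => (h.1.2 x hx).2⟩
      have he : perm7 100 c = wordPerm7 100 gensP w := Equiv.ext fun x => Fin.ext (by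
        rw [perm7_apply h.1.1.1, wordPerm7_apply gens_perm h.1.1.2, (h.1.2 x.1 x.2).1.1])
      rw [he]
      exact wordPerm7_mem perm7_mem_gen7 h.1.1.2
    · obtain ⟨i, hi, hrest⟩ := getD_of_gensOk h.2 c hc
      exact ⟨i + 1, Nat.succ_lt_succ hi, hrest⟩

theorem centGens_perm : ∀ c ∈ centGens, isPerm7 100 c = true := fun c hc =>
  (getD_of_gensOk gens_ok c hc).choose_spec.2.2.1

/-- The generated subgroup. -/
noncomputable abbrev Cp : Subgroup (Equiv.Perm (Fin 100)) := gen7 100 centGens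

theorem Cp_le : Cp ≤ j2Group ⊓ Subgroup.centralizer {tPerm} := by
  refine (Subgroup.closure_le _).2 ?_
  rintro _ ⟨c, hc, rfl⟩
  obtain ⟨i, -, -, hp, hmem, hcomm, -⟩ := getD_of_gensOk gens_ok c hc
  refine ⟨hmem, Subgroup.mem_centralizer_singleton_iff.2 (Equiv.ext fun x => Fin.ext ?_)⟩
  simp only [tPerm, Equiv.Perm.mul_apply]
  rw [perm7_apply hp, perm7_apply tCode_perm, perm7_apply tCode_perm, perm7_apply hp,
    hcomm x.1 x.2]

/-- The induced permutation of the five blocks. -/
def BlockRel (g : Equiv.Perm (Fin 100)) (π : Equiv.Perm (Fin 5)) : Prop :=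
  ∀ (x : Fin 100) (k : Fin 5), blockLabel.getD x.1 0 = k.1 →
    blockLabel.getD (g x).1 0 = (π k).1

theorem BlockRel.mul {g h : Equiv.Perm (Fin 100)} {π ρ : Equiv.Perm (Fin 5)} (hg : BlockRel g π)
    (hh : BlockRel h ρ) : BlockRel (g * h) (π * ρ) :=
  fun x k hx => hg _ _ (hh x k hx)

theorem BlockRel.unique {g : Equiv.Perm (Fin 100)} {π ρ : Equiv.Perm (Fin 5)} (hg : BlockRel g π)
    (hg' : BlockRel g ρ) : π = ρ := by
  refine Equiv.ext fun k => ?_
  have h := blocks_ok
  simp only [List.all_eq_true, List.any_eq_true, List.mem_range, beq_iff_eq] at h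
  obtain ⟨x, hx, hk⟩ := h k.1 k.2
  exact Fin.ext ((hg ⟨x, hx⟩ k hk).symm.trans (hg' ⟨x, hx⟩ k hk))

theorem blockRel_gen {c : ℕ} (hc : c ∈ centGens) : ∃ π : Equiv.Perm (Fin 5),
    Equiv.Perm.sign π = 1 ∧ BlockRel (perm7 100 c) π ∧
    ∃ i, i < centGens.length ∧ centGens.getD i 0 = c ∧
      ∀ k : Fin 5, (π k).1 = (blockPerms.getD i []).getD k.1 5 := by
  obtain ⟨i, hi, hci, hp, -, -, hlab⟩ := getD_of_gensOk gens_ok c hc
  have hlen : centGens.length = 2 := by decide +kernel
  obtain ⟨π, hs, hπ⟩ := of_decide_eq_true blockPerms_even ⟨i, hlen ▸ hi⟩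
  refine ⟨π, hs, fun x k hx => ?_, i, hi, hci, hπ⟩
  rw [perm7_apply hp, hlab x.1 x.2, hx]
  exact (hπ k).symm

theorem exists_blockRel {g : Equiv.Perm (Fin 100)} (hg : g ∈ Cp) :
    ∃ π : Equiv.Perm (Fin 5), Equiv.Perm.sign π = 1 ∧ BlockRel g π := by
  induction hg using Subgroup.closure_induction'' with
  | mem g hg =>
    obtain ⟨c, hc, rfl⟩ := hg
    obtain ⟨π, hs, hr, -⟩ := blockRel_gen hc
    exact ⟨π, hs, hr⟩
  | inv_mem g hg =>
    obtain ⟨c, hc, rfl⟩ := hg
    obtain ⟨π, hs, hr, -⟩ := blockRel_gen hc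
    refine ⟨π⁻¹, by rw [map_inv, hs, inv_one], fun x k hx => ?_⟩
    obtain ⟨j, rfl⟩ : ∃ j, π j = k := ⟨π.symm k, π.apply_symm_apply k⟩
    obtain ⟨y, rfl⟩ : ∃ y, perm7 100 c y = x :=
      ⟨(perm7 100 c).symm x, (perm7 100 c).apply_symm_apply x⟩
    simp only [Equiv.Perm.coe_inv, Equiv.symm_apply_apply]
    by_cases hlab : blockLabel.getD y.1 0 < 5
    · have e := hr y ⟨_, hlab⟩ rfl
      rw [hx] at e
      exact Fin.val_eq_of_eq (π.injective (Fin.ext e.symm) : (⟨_, hlab⟩ : Fin 5) = j)
    · exfalso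
      obtain ⟨i, hi, -, hp, -, -, hl⟩ := getD_of_gensOk gens_ok c hc
      have h5 : ∀ i < 2, ∀ l < 6, 5 ≤ l → (blockPerms.getD i []).getD l 5 = 5 := by decide +kernel
      have hlt : ∀ y : Fin 100, blockLabel.getD y.1 0 < 6 := by decide +kernel
      have hlen : centGens.length = 2 := by decide +kernel
      have e := hl y.1 y.2
      rw [← perm7_apply hp, hx, h5 i (hlen ▸ hi) _ (hlt y) (not_lt.1 hlab)] at e
      exact absurd e (ne_of_lt (π j).2)
  | one => exact ⟨1, map_one _, fun x k hx => hx⟩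
  | mul g h _ _ hg hh =>
    obtain ⟨π, hs, hr⟩ := hg
    obtain ⟨ρ, hs', hr'⟩ := hh
    exact ⟨π * ρ, by rw [map_mul, hs, hs', one_mul], hr.mul hr'⟩

/-- The action on the five blocks. -/
noncomputable def blockHom : Cp →* alternatingGroup (Fin 5) where
  toFun g := ⟨(exists_blockRel g.2).choose, (exists_blockRel g.2).choose_spec.1⟩
  map_one' := Subtype.ext ((exists_blockRel (1 : Cp).2).choose_spec.2.unique fun x k hx => hx)
  map_mul' g h := Subtype.ext ((exists_blockRel (g * h).2).choose_spec.2.unique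
    ((exists_blockRel g.2).choose_spec.2.mul (exists_blockRel h.2).choose_spec.2))

theorem blockHom_spec (g : Cp) : BlockRel g (blockHom g : Equiv.Perm (Fin 5)) :=
  (exists_blockRel g.2).choose_spec.2

theorem word_spec : ∀ {w : List ℕ}, wordValid centGens w = true →
    ∃ g : Cp, (g : Equiv.Perm (Fin 100)) = wordPerm7 100 centGens w ∧
      ∀ k : Fin 5, ((blockHom g : Equiv.Perm (Fin 5)) k).1 = wordBlock w k.1
  | [], _ => ⟨1, rfl, fun k => by rw [map_one]; rfl⟩
  | i :: w, h => by
    rw [wordValid, List.all_cons, Bool.and_eq_true, decide_eq_true_eq] at h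
    obtain ⟨g, hg, hb⟩ := word_spec h.2
    obtain ⟨π, -, hr, j, hj, hji, hπ⟩ := blockRel_gen (getD_mem h.1)
    have hij : j = i := by
      have hnd : centGens.Nodup := by decide +kernel
      rw [List.getD_eq_getElem _ _ hj, List.getD_eq_getElem _ _ h.1] at hji
      exact (hnd.getElem_inj_iff).1 hji
    subst hij
    refine ⟨⟨_, perm7_mem_gen7 _ (getD_mem h.1)⟩ * g, by rw [Subgroup.coe_mul, hg]; rfl,
      fun k => ?_⟩
    rw [map_mul, Subgroup.coe_mul, Equiv.Perm.mul_apply,
      (blockHom_spec ⟨_, perm7_mem_gen7 _ (getD_mem h.1)⟩).unique hr, hπ, hb]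
    rfl

theorem blockHom_surjective : Function.Surjective blockHom := by
  intro σ
  obtain ⟨w, hw, hσ⟩ := of_decide_eq_true alt_check σ.1 σ.2
  obtain ⟨g, -, hg⟩ := word_spec (List.all_eq_true.1 alt_valid w hw)
  exact ⟨g, Subtype.ext (Equiv.ext fun k => Fin.ext (by rw [hg, hσ]))⟩

theorem ker_spec : ∀ {cs : List ℕ} {ws : List (List ℕ)}, kerOk cs ws = true → ∀ c ∈ cs,
    ∃ g : Cp, g ∈ blockHom.ker ∧ ∀ x : Fin 100, ((g : Equiv.Perm (Fin 100)) x).1 = app7 c x.1
  | [], _, _, c, hc => by simp at hc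
  | d :: cs, [], h, _, _ => by simp [kerOk] at h
  | d :: cs, w :: ws, h, c, hc => by
    simp only [kerOk, Bool.and_eq_true, List.all_eq_true, List.mem_range, beq_iff_eq] at h
    rcases List.mem_cons.1 hc with rfl | hc
    · obtain ⟨g, hg, hb⟩ := word_spec h.1.1.1
      refine ⟨g, MonoidHom.mem_ker.2 (Subtype.ext (Equiv.ext fun k => Fin.ext ?_)), fun x => ?_⟩
      · rw [hb, h.1.2 k.1 k.2]; rfl
      · rw [hg, wordPerm7_apply centGens_perm h.1.1.1, h.1.1.2 x.1 x.2]
    · exact ker_spec h.2 c hc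

/-- A listed kernel element. -/
noncomputable def kerElem (i : Fin 32) : blockHom.ker :=
  ⟨_, (ker_spec ker_ok (kerCodes.getD i.1 0)
    (getD_mem (lt_of_lt_of_eq i.2 ker_length.symm))).choose_spec.1⟩

theorem kerElem_val (i : Fin 32) (x : Fin 100) :
    (((kerElem i : Cp) : Equiv.Perm (Fin 100)) x).1 = app7 (kerCodes.getD i.1 0) x.1 :=
  (ker_spec ker_ok (kerCodes.getD i.1 0)
    (getD_mem (lt_of_lt_of_eq i.2 ker_length.symm))).choose_spec.2 x

theorem baseKey_eq {c d : ℕ} (h : ∀ x : Fin 100, app7 c x.1 = app7 d x.1) :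
    baseKey c = baseKey d := by
  simp only [baseKey, List.map_cons, List.map_nil]
  rw [h ⟨0, by norm_num⟩, h ⟨1, by norm_num⟩, h ⟨21, by norm_num⟩, h ⟨25, by norm_num⟩,
    h ⟨20, by norm_num⟩]

theorem kerElem_injective : Function.Injective kerElem := by
  intro i j h
  have hk : baseKey (kerCodes.getD i.1 0) = baseKey (kerCodes.getD j.1 0) := baseKey_eq fun x => by
    rw [← kerElem_val, h, kerElem_val]
  have hl := ker_length
  have hnd := of_decide_eq_true ker_distinct
  refine Fin.ext ((hnd.getElem_inj_iff (hi := by rw [List.length_map, hl]; exact i.2)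
    (hj := by rw [List.length_map, hl]; exact j.2)).1 ?_)
  rw [List.getElem_map, List.getElem_map, ← List.getD_eq_getElem _ 0, ← List.getD_eq_getElem _ 0]
  exact hk

theorem card_Cp_eq : Nat.card Cp = Nat.card blockHom.ker * 60 := by
  rw [← Subgroup.index_mul_card blockHom.ker, Subgroup.index_ker,
    MonoidHom.range_eq_top.2 blockHom_surjective, Subgroup.card_top, nat_card_alternatingGroup,
    mul_comm]
  norm_num [Nat.factorial]

theorem exists_conj (j : ℕ) (hj : j < 315) : ∃ g ∈ j2Group, ∀ x : Fin 100,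
    ((g * tPerm * g⁻¹) x).1 = app7 (conjCodes.getD j 0) x.1 := by
  induction j using Nat.strong_induction_on with
  | _ j ih =>
    have h := conj_tree
    simp only [List.all_eq_true, List.mem_range, Bool.or_eq_true, Bool.and_eq_true,
      decide_eq_true_eq, beq_iff_eq] at h
    rcases h j hj with ⟨rfl, h0⟩ | ⟨⟨hlt, hk⟩, hu⟩
    · exact ⟨1, one_mem _, fun x => by
        rw [one_mul, inv_one, mul_one, h0 x.1 x.2, tPerm, perm7_apply tCode_perm]⟩
    · obtain ⟨g, hg, hgx⟩ := ih _ hlt (by omega)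
      set s := perm7 100 (setGens.getD (conjTree.getD j (0, 0)).2 0) with hs
      have hsp := setGens_perm _ (setGens_mem ⟨_, hk⟩)
      refine ⟨s * g, mul_mem (setGens_in ⟨_, hk⟩) hg, fun x => ?_⟩
      have e : s * g * tPerm * (s * g)⁻¹ = s * (g * tPerm * g⁻¹) * s⁻¹ := by group
      obtain ⟨y, rfl⟩ : ∃ y, s y = x := ⟨s.symm x, s.apply_symm_apply x⟩
      rw [e, Equiv.Perm.mul_apply, Equiv.Perm.mul_apply, Equiv.Perm.coe_inv,
        Equiv.symm_apply_apply, hs, perm7_apply hsp, perm7_apply hsp, hgx, hu y.1 y.2]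

/-- The centraliser in the permutation group. -/
noncomputable abbrev Kp : Subgroup j2Group := Subgroup.centralizer {⟨tPerm, tPerm_mem⟩}

theorem index_Kp : 315 ≤ Kp.index := by
  let f : Fin 315 → j2Group ⧸ Kp := fun j =>
    QuotientGroup.mk ⟨_, (exists_conj j.1 j.2).choose_spec.1⟩
  have hf : Function.Injective f := by
    intro i j h
    obtain ⟨-, hgi⟩ := (exists_conj i.1 i.2).choose_spec
    obtain ⟨-, hgj⟩ := (exists_conj j.1 j.2).choose_spec
    set gi := (exists_conj i.1 i.2).choose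
    set gj := (exists_conj j.1 j.2).choose
    have hm := QuotientGroup.eq.1 h
    have hcomm : gi⁻¹ * gj * tPerm = tPerm * (gi⁻¹ * gj) :=
      congrArg Subtype.val (Subgroup.mem_centralizer_singleton_iff.1 hm)
    have he : gi * tPerm * gi⁻¹ = gj * tPerm * gj⁻¹ := by
      calc gi * tPerm * gi⁻¹ = gi * (tPerm * (gi⁻¹ * gj)) * gj⁻¹ := by group
        _ = _ := by rw [← hcomm]; group
    have hk : baseKey (conjCodes.getD i.1 0) = baseKey (conjCodes.getD j.1 0) :=
      baseKey_eq fun x => by rw [← hgi, ← hgj, he]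
    have hl := conj_length
    have hnd := of_decide_eq_true conj_distinct
    refine Fin.ext ((hnd.getElem_inj_iff (hi := by rw [List.length_map, hl]; exact i.2)
      (hj := by rw [List.length_map, hl]; exact j.2)).1 ?_)
    rw [List.getElem_map, List.getElem_map, ← List.getD_eq_getElem _ 0,
      ← List.getD_eq_getElem _ 0]
    exact hk
  have := Nat.card_le_card_of_injective f hf
  rwa [Nat.card_eq_fintype_card, Fintype.card_fin] at this

/-- The inclusion. -/
noncomputable def inclusion : Cp →* Kp where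
  toFun g := ⟨⟨g, (Cp_le g.2).1⟩, Subgroup.mem_centralizer_singleton_iff.2
    (Subtype.ext (Subgroup.mem_centralizer_singleton_iff.1 (Cp_le g.2).2))⟩
  map_one' := rfl
  map_mul' _ _ := rfl

theorem inclusion_bijective : Function.Bijective inclusion ∧ Nat.card blockHom.ker = 32 := by
  have hinj : Function.Injective inclusion := fun g h e =>
    Subtype.ext (congrArg (fun k : Kp => k.1.1) e)
  have h1 : 32 ≤ Nat.card blockHom.ker := by
    have := Nat.card_le_card_of_injective kerElem kerElem_injective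
    rwa [Nat.card_eq_fintype_card, Fintype.card_fin] at this
  have h2 := Nat.card_le_card_of_injective inclusion hinj
  have h3 := Kp.index_mul_card
  rw [card_j2Group] at h3
  have h4 : 315 * Nat.card Kp ≤ 604800 := h3 ▸ Nat.mul_le_mul_right _ index_Kp
  have h5 := card_Cp_eq
  exact ⟨(Nat.bijective_iff_injective_and_card inclusion).2 ⟨hinj, by omega⟩, by omega⟩

theorem kerElem_surjective : Function.Surjective kerElem :=
  ((Nat.bijective_iff_injective_and_card kerElem).2 ⟨kerElem_injective, by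
    rw [inclusion_bijective.2, Nat.card_eq_fintype_card, Fintype.card_fin]⟩).2

theorem val_ext {g h : blockHom.ker} (e : ∀ x : Fin 100, (((g : Cp) : Equiv.Perm (Fin 100)) x).1 =
    (((h : Cp) : Equiv.Perm (Fin 100)) x).1) : g = h :=
  Subtype.ext (Subtype.ext (Equiv.ext fun x => Fin.ext (e x)))

theorem isExtraspecial_ker : Cfsg.IsExtraspecial 2 blockHom.ker := by
  obtain ⟨c, hc, hct⟩ : ∃ c ∈ kerCodes, ∀ x < 100, app7 c x = app7 tCode x := by
    have h := t_mem_ker
    simp only [List.any_eq_true, List.all_eq_true, List.mem_range, beq_iff_eq] at h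
    exact h
  obtain ⟨i₀, hi₀, rfl⟩ := List.getElem_of_mem hc
  set z := kerElem ⟨i₀, ker_length ▸ hi₀⟩ with hz
  have hzval : ∀ x : Fin 100, (((z : Cp) : Equiv.Perm (Fin 100)) x).1 = app7 tCode x.1 := fun x => by
    rw [hz, kerElem_val, List.getD_eq_getElem _ _ hi₀, hct x.1 x.2]
  have hzperm : ((z : Cp) : Equiv.Perm (Fin 100)) = tPerm :=
    Equiv.ext fun x => Fin.ext (by rw [hzval, tPerm, perm7_apply tCode_perm])
  have hzc : z ∈ Subgroup.center blockHom.ker := Subgroup.mem_center_iff.2 fun g =>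
    Subtype.ext (Subtype.ext (by
      simp only [Subgroup.coe_mul, hzperm]
      exact Subgroup.mem_centralizer_singleton_iff.1 (Cp_le (g : Cp).2).2))
  have hz1 : z ≠ 1 := fun h => by
    have hm := t_moves
    simp only [List.any_eq_true, List.mem_range, bne_iff_ne] at hm
    obtain ⟨x, hx, hne⟩ := hm
    exact hne (by rw [← hzval ⟨x, hx⟩, h]; rfl)
  have hcenter : ∀ g : blockHom.ker, g ∈ Subgroup.center blockHom.ker → g = 1 ∨ g = z := by
    intro g hg
    obtain ⟨i, rfl⟩ := kerElem_surjective g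
    have h := ker_centre
    simp only [List.all_eq_true, List.any_eq_true, Bool.or_eq_true, List.mem_range, beq_iff_eq,
      bne_iff_ne] at h
    rcases h _ (getD_mem (lt_of_lt_of_eq i.2 ker_length.symm)) with (h | h) | ⟨d, hd, x, hx, hne⟩
    · exact Or.inl (val_ext fun x => by rw [kerElem_val, h x.1 x.2]; rfl)
    · exact Or.inr (val_ext fun x => by rw [kerElem_val, h x.1 x.2, hzval])
    · exfalso
      obtain ⟨j, hj, rfl⟩ := List.getElem_of_mem hd
      apply hne
      have e := congrArg (fun u : blockHom.ker => (((u : Cp) : Equiv.Perm (Fin 100)) ⟨x, hx⟩).1)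
        (Subgroup.mem_center_iff.1 hg (kerElem ⟨j, ker_length ▸ hj⟩))
      simp only [Subgroup.coe_mul, Equiv.Perm.mul_apply, kerElem_val] at e
      rw [List.getD_eq_getElem _ _ hj] at e
      exact e.symm
  have hset : (Subgroup.center blockHom.ker : Set blockHom.ker) = {1, z} := Set.ext fun g =>
    ⟨fun hg => hcenter g hg, fun hg => by rcases hg with rfl | rfl; exacts [one_mem _, hzc]⟩
  refine CfsgLib.Minimal.ThreeBlock.isExtraspecial_of_squares (j := 5)
    (by rw [inclusion_bijective.2]; rfl) (fun g => ?_) ?_ ?_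
  · obtain ⟨i, rfl⟩ := kerElem_surjective g
    have h := ker_squares
    simp only [List.all_eq_true, Bool.or_eq_true, List.mem_range, beq_iff_eq] at h
    rcases h _ (getD_mem (lt_of_lt_of_eq i.2 ker_length.symm)) with h | h
    · rw [show kerElem i * kerElem i = 1 from val_ext fun x => by
        rw [Subgroup.coe_mul, Subgroup.coe_mul, Equiv.Perm.mul_apply, kerElem_val, kerElem_val,
          h x.1 x.2]; rfl]
      exact one_mem _
    · rw [show kerElem i * kerElem i = z from val_ext fun x => by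
        rw [Subgroup.coe_mul, Subgroup.coe_mul, Equiv.Perm.mul_apply, kerElem_val, kerElem_val,
          h x.1 x.2, hzval]]
      exact hzc
  · rw [← SetLike.coe_sort_coe, Nat.card_coe_set_eq, hset, Set.ncard_pair hz1.symm]
  · intro h
    have : Nat.card (Subgroup.center blockHom.ker) = 32 := by
      rw [h, Subgroup.card_top, inclusion_bijective.2]
    rw [← SetLike.coe_sort_coe, Nat.card_coe_set_eq, hset, Set.ncard_pair hz1.symm] at this
    norm_num at this

/-- Centralisers transported along an isomorphism. -/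
noncomputable def centralizerEquiv {G H : Type*} [Group G] [Group H] (e : G ≃* H) {x : G} {y : H}
    (h : e x = y) : Subgroup.centralizer {x} ≃* Subgroup.centralizer {y} where
  toFun g := ⟨e g, Subgroup.mem_centralizer_singleton_iff.2 (by
    rw [← h, ← map_mul, ← map_mul, Subgroup.mem_centralizer_singleton_iff.1 g.2])⟩
  invFun g := ⟨e.symm g, Subgroup.mem_centralizer_singleton_iff.2 (by
    rw [← e.symm_apply_apply x, h, ← map_mul, ← map_mul,
      Subgroup.mem_centralizer_singleton_iff.1 g.2])⟩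
  left_inv g := Subtype.ext (e.symm_apply_apply _)
  right_inv g := Subtype.ext (e.apply_symm_apply _)
  map_mul' g g' := Subtype.ext (map_mul e _ _)

theorem exists_structure (f : Equiv.Perm ↥Cfsg.Spor.icoLeech) (hf : Cfsg.Spor.IsIcoReflection f)
    (hfm : f ∈ Cfsg.Spor.twoJ2) :
    ∃ (Q : Subgroup ↥(Subgroup.centralizer {(QuotientGroup.mk ⟨f, hfm⟩ : Cfsg.Spor.J2)}))
      (_ : Q.Normal), Nat.card Q = 32 ∧ Cfsg.IsExtraspecial 2 Q ∧
      Nonempty (↥(Subgroup.centralizer {(QuotientGroup.mk ⟨f, hfm⟩ : Cfsg.Spor.J2)}) ⧸ Q ≃*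
        alternatingGroup (Fin 5)) := by
  obtain ⟨i, rfl⟩ := isIcoReflection_iff.1 hf
  obtain ⟨g, hg, hgi⟩ := exists_conj_seed i
  set G := equivJ2.trans (MulAut.conj (equivJ2 (QuotientGroup.mk ⟨g, hg⟩))⁻¹) with hG
  have hx : G (QuotientGroup.mk ⟨lineRefl i, hfm⟩) = (⟨tPerm, tPerm_mem⟩ : j2Group) := by
    have he : (QuotientGroup.mk ⟨lineRefl i, hfm⟩ : Cfsg.Spor.J2) =
        MulAut.conj (QuotientGroup.mk ⟨g, hg⟩) (QuotientGroup.mk (seedG 0)) := by
      rw [MulAut.conj_apply, ← QuotientGroup.mk_inv, ← QuotientGroup.mk_mul,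
        ← QuotientGroup.mk_mul]
      exact congrArg _ (Subtype.ext hgi.symm)
    rw [he, hG, MulEquiv.trans_apply]
    simp only [MulAut.conj_apply, map_mul, map_inv, MulAut.conj_inv_apply]
    rw [show (equivJ2 (QuotientGroup.mk (seedG 0)) : j2Group) = ⟨tPerm, tPerm_mem⟩ from
      Subtype.ext (by show setHom (seedG 0) = tPerm; rw [setHom_seed]; rfl)]
    group
  let e : ↥(Subgroup.centralizer {(QuotientGroup.mk ⟨lineRefl i, hfm⟩ : Cfsg.Spor.J2)}) ≃* Cp :=
    (centralizerEquiv G hx).trans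
      (MulEquiv.ofBijective inclusion inclusion_bijective.1).symm
  set φ := blockHom.comp e.toMonoidHom with hφ
  have hiso : φ.ker ≃* blockHom.ker :=
    { toFun := fun x => ⟨e x.1, x.2⟩
      invFun := fun y => ⟨e.symm y.1, MonoidHom.mem_ker.2 (by
        show blockHom (e (e.symm y.1)) = 1
        rw [e.apply_symm_apply]; exact y.2)⟩
      left_inv := fun x => Subtype.ext (e.symm_apply_apply _)
      right_inv := fun y => Subtype.ext (e.apply_symm_apply _)
      map_mul' := fun a b => Subtype.ext (map_mul e _ _) }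
  exact ⟨φ.ker, inferInstance, (Nat.card_congr hiso.toEquiv).trans inclusion_bijective.2,
    CfsgLib.PGroups.IsExtraspecial.of_mulEquiv hiso.symm isExtraspecial_ker,
    ⟨QuotientGroup.quotientKerEquivOfSurjective φ (blockHom_surjective.comp e.surjective)⟩⟩

end CfsgLib.J2Ico.Involution
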