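import Cfsg.Agent.Lib.J2Ico.MultCheck
import Cfsg.Agent.Lib.J2Ico.Group
import Cfsg.Agent.Lib.SchurMult.OddSylow
import Cfsg.Agent.Lib.SchurMult.SmallSylow
import Cfsg.Prelude.Def_KGroupFacts

/-!
The Schur multiplier of the Hall–Janko group has order two: the icosian reflection group is a stem
extension, and the certificates bound every other one.
-/

set_option autoImplicit false

open scoped Quaternion

namespace CfsgLib.J2Ico.Mult

open Cfsg.Spor CfsgLib.SchurMult CfsgLib.Mathieu CfsgLib.Mathieu.GraphAut
  CfsgLib.Mathieu.RankThree CfsgLib.Mathieu.J2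

theorem code_spec {i : ℕ} (hi : i < codes.length) :
    isPerm7 100 (codes.getD i 0) = true ∧ perm7 100 (codes.getD i 0) ∈ j2Group := by
  have h := mem_ok
  simp only [memOk, Bool.and_eq_true, List.all_eq_true, List.mem_range, beq_iff_eq] at h
  obtain ⟨⟨hp, hv⟩, hw⟩ := h.2 i hi
  refine ⟨hp, ?_⟩
  have he : perm7 100 (codes.getD i 0) = wordPerm7 100 J2Cert.gensP (codeWords.getD i []) :=
    Equiv.ext fun x => Fin.ext (by
      rw [perm7_apply hp, wordPerm7_apply gens_perm hv, hw x.1 x.2])
  rw [he]
  exact wordPerm7_mem perm7_mem_gen7 hv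

theorem codes_perm : ∀ c ∈ codes, isPerm7 100 c = true := by
  intro c hc
  obtain ⟨i, hi, rfl⟩ := List.getElem_of_mem hc
  rw [← List.getD_eq_getElem _ 0 hi]
  exact (code_spec hi).1

/-- The listed elements. -/
noncomputable def el (i : ℕ) : j2Group :=
  if hi : i < codes.length then ⟨_, (code_spec hi).2⟩ else 1

theorem coe_lprod : ∀ {w : List ℕ}, wordValid codes w = true →
    ((lprod el w : j2Group) : Equiv.Perm (Fin 100)) = wordPerm7 100 codes w
  | [], _ => rfl
  | i :: w, h => by
    rw [wordValid, List.all_cons, Bool.and_eq_true, decide_eq_true_eq] at h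
    rw [lprod, Subgroup.coe_mul, coe_lprod h.2, el, dif_pos h.1]
    rfl

theorem lprod_apply {w : List ℕ} (hw : wordValid codes w = true) (x : Fin 100) :
    (((lprod el w : j2Group) : Equiv.Perm (Fin 100)) x).1 = word7 codes w x.1 := by
  rw [coe_lprod hw, wordPerm7_apply codes_perm hw]

theorem eq_of_same {u w : List ℕ} (h : same u w = true) (hu : wordValid codes u = true)
    (hw : wordValid codes w = true) : lprod el u = lprod el w := by
  simp only [same, List.all_eq_true, List.mem_range, beq_iff_eq] at h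
  exact Subtype.ext (Equiv.ext fun x => Fin.ext (by
    rw [lprod_apply hu, lprod_apply hw, h x.1 x.2]))

theorem ne_of_not_same {u w : List ℕ} (h : same u w = false) (hu : wordValid codes u = true)
    (hw : wordValid codes w = true) : lprod el u ≠ lprod el w := by
  intro he
  have : same u w = true := by
    simp only [same, List.all_eq_true, List.mem_range, beq_iff_eq]
    intro x hx
    rw [← lprod_apply hu ⟨x, hx⟩, ← lprod_apply hw ⟨x, hx⟩, he]
  rw [this] at h
  exact Bool.noConfusion h

theorem digits_lt : ∀ (k x : ℕ), ∀ i ∈ Collector.digits k x, i < k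
  | 0, _, i, hi => by simp [Collector.digits] at hi
  | k + 1, x, i, hi => by
    rw [Collector.digits] at hi
    cases hb : x.testBit k <;> simp [hb] at hi
    · exact (digits_lt k x i hi).trans (by omega)
    · rcases hi with hi | rfl
      · exact (digits_lt k x i hi).trans (by omega)
      · omega

theorem digits_valid (x : ℕ) : wordValid codes (Collector.digits col.n x) = true := by
  rw [wordValid, List.all_eq_true]
  intro i hi
  have h7 : col.n ≤ codes.length := by decide +kernel
  exact decide_eq_true ((digits_lt _ _ i hi).trans_le h7)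

theorem wordKey_inj {u w : List ℕ} (hu : wordValid codes u = true) (hw : wordValid codes w = true)
    (h : lprod el u = lprod el w) : wordKey u = wordKey w := by
  simp only [wordKey, List.map_cons, List.map_nil]
  have e : ∀ x : Fin 100, word7 codes u x.1 = word7 codes w x.1 := fun x => by
    rw [← lprod_apply hu, ← lprod_apply hw, h]
  rw [e ⟨0, by norm_num⟩, e ⟨1, by norm_num⟩, e ⟨21, by norm_num⟩, e ⟨25, by norm_num⟩,
    e ⟨20, by norm_num⟩]

theorem card_sylow_two :
    2 ^ col.n ≤ Nat.card (Subgroup.closure (el '' Set.Iio col.n)) := by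
  set H := Subgroup.closure (el '' Set.Iio col.n)
  have hmem : ∀ x, lprod el (Collector.digits col.n x) ∈ H := fun x => by
    have : ∀ w : List ℕ, (∀ i ∈ w, i < col.n) → lprod el w ∈ H := by
      intro w
      induction w with
      | nil => exact fun _ => one_mem H
      | cons i w ih =>
        exact fun h => mul_mem (Subgroup.subset_closure ⟨i, h i (List.mem_cons_self ..), rfl⟩)
          (ih fun j hj => h j (List.mem_cons_of_mem _ hj))
    exact this _ (digits_lt _ _)
  have hn : 2 ^ col.n = 128 := by decide +kernel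
  have hinj : Function.Injective fun x : Fin 128 =>
      (⟨_, hmem x.1⟩ : H) := by
    intro x y h
    have hk := wordKey_inj (digits_valid _) (digits_valid _) (congrArg Subtype.val h)
    have hnd := of_decide_eq_true nf_distinct
    refine Fin.ext ((hnd.getElem_inj_iff (hi := by simp) (hj := by simp)).1 ?_)
    simpa using hk
  have := Nat.card_le_card_of_injective _ hinj
  rwa [Nat.card_eq_fintype_card, Fintype.card_fin, ← hn] at this

theorem card_factor : Nat.card j2Group = 2 ^ 7 * (3 ^ 3 * 5 ^ 2 * 7) := by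
  rw [card_j2Group]; norm_num

theorem two_part {Γ : Type} [Group Γ] [Finite Γ] {σ : Γ →* j2Group}
    (hσ : Cfsg.IsStemExtension σ) :
    ∃ w : Γ, w ^ 2 = 1 ∧ ∀ z ∈ σ.ker, ∀ k : ℕ, z ^ 2 ^ k = 1 → z ∈ Subgroup.zpowers w := by
  have hpair := pair_ok
  simp only [Bool.and_eq_true, decide_eq_true_eq, beq_iff_eq] at hpair
  obtain ⟨⟨⟨⟨hx, hy⟩, hxy⟩, hxx⟩, hsolved⟩ := hpair
  refine two_elements_le_zpowers col el (fun k => el (conjStart + k)) table_ok hx hy hxy hxx hsolved
    (fun v hv => ?_) (fun e he => ?_) card_sylow_two ⟨3 ^ 3 * 5 ^ 2 * 7, by norm_num, card_factor⟩ hσ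
  · rw [List.getD_eq_getElem _ _ hv]
    have h := List.all_eq_true.1 rels_ok _ (List.getElem_mem hv)
    simp only [Bool.and_eq_true] at h
    exact eq_of_same h.2 h.1.1 h.1.2
  · have h := conj_ok
    simp only [conjOk, List.all_eq_true] at h
    have := h e he
    cases e with
    | assoc pre v => trivial
    | conj k m pairs =>
      simp only [Bool.and_eq_true, decide_eq_true_eq, List.all_eq_true] at this
      intro q hq
      have hk : wordValid codes [conjStart + k] = true := by simp [wordValid, this.1]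
      have hd := digits_valid
      have e := eq_of_same (this.2 q hq)
        (by
          have := hd q.1
          simp only [wordValid, List.all_cons, Bool.and_eq_true] at this hk ⊢
          exact ⟨hk.1, this⟩)
        (by
          have := hd q.2
          simp only [wordValid, List.all_append, Bool.and_eq_true] at this hk ⊢
          exact ⟨this, hk⟩)
      rw [mul_inv_eq_iff_eq_mul, nf, nf, ← lprod_digits, ← lprod_digits]
      rw [lprod_append] at e
      simpa [lprod] using e

theorem closure_card {a b : ℕ} {ws : List (List ℕ)} (h : closedOk a b ws = true)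
    (ha : a < codes.length) (hb : b < codes.length) :
    Nat.card (Subgroup.closure {el a, el b}) = ws.length := by
  set us := ws.map fun w => w.map fun i => if i == 0 then a else b with hus
  simp only [closedOk, Bool.and_eq_true, decide_eq_true_eq, List.all_eq_true,
    List.any_eq_true] at h
  rw [← hus] at h
  obtain ⟨⟨⟨hval, hnd⟩, ⟨e, he, hee⟩⟩, hstep⟩ := h
  set S : Set j2Group := {g | ∃ u ∈ us, lprod el u = g} with hS
  have hnil : wordValid codes [] = true := rfl
  have hle : ∀ g ∈ Subgroup.closure {el a, el b}, g ∈ S := by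
    intro g hg
    rw [← Subgroup.mem_toSubmonoid, Subgroup.closure_toSubmonoid_of_finite] at hg
    induction hg using Submonoid.closure_induction_left with
    | one => exact ⟨e, he, eq_of_same hee (hval e he) hnil⟩
    | mul_left x hx y _ ih =>
      obtain ⟨u, hu, rfl⟩ := ih
      obtain ⟨⟨u1, hu1, h1⟩, ⟨u2, hu2, h2⟩⟩ := hstep u hu
      have hcons : ∀ i, i < codes.length → wordValid codes (i :: u) = true := fun i hi => by
        have := hval u hu
        simp only [wordValid, List.all_cons, Bool.and_eq_true, decide_eq_true_eq] at this ⊢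
        exact ⟨hi, this⟩
      rcases hx with rfl | rfl
      · exact ⟨u1, hu1, (eq_of_same h1 (hcons a ha) (hval u1 hu1)).symm⟩
      · exact ⟨u2, hu2, (eq_of_same h2 (hcons b hb) (hval u2 hu2)).symm⟩
  have hge : ∀ u ∈ us, lprod el u ∈ Subgroup.closure {el a, el b} := by
    intro u hu
    obtain ⟨w, -, rfl⟩ := List.mem_map.1 hu
    clear hu
    induction w with
    | nil => exact one_mem _
    | cons i w ih =>
      refine mul_mem ?_ ih
      by_cases hi : (i == 0) = true <;> simp only [hi, if_true] <;>
        exact Subgroup.subset_closure (by simp)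
  let f : Fin us.length → Subgroup.closure {el a, el b} :=
    fun i => ⟨_, hge _ (List.getElem_mem i.2)⟩
  have hf : Function.Bijective f := by
    refine ⟨fun i j hij => ?_, fun g => ?_⟩
    · have hk := wordKey_inj (hval _ (List.getElem_mem i.2)) (hval _ (List.getElem_mem j.2))
        (congrArg Subtype.val hij)
      refine Fin.ext ((hnd.getElem_inj_iff (hi := by simpa using i.2) (hj := by simpa using j.2)).1 ?_)
      simpa using hk
    · obtain ⟨u, hu, hue⟩ := hle g.1 g.2
      obtain ⟨i, hi, rfl⟩ := List.getElem_of_mem hu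
      exact ⟨⟨i, hi⟩, Subtype.ext hue⟩
  rw [← Nat.card_eq_of_bijective f hf, Nat.card_eq_fintype_card, Fintype.card_fin, hus,
    List.length_map]

theorem not_three {Γ : Type} [Group Γ] [Finite Γ] {σ : Γ →* j2Group}
    (hσ : Cfsg.IsStemExtension σ) : ¬ 3 ∣ Nat.card σ.ker := by
  have h := relations_three
  simp only [Bool.and_eq_true, Bool.not_eq_true'] at h
  obtain ⟨⟨⟨⟨⟨⟨⟨⟨⟨hz, hx⟩, hy⟩, hz1⟩, hxz⟩, hyz⟩, hgx⟩, hgz⟩, hhy⟩, hhz⟩ := h
  have hz' := eq_of_same hz (by decide +kernel) (by decide +kernel)
  have hx' := eq_of_same hx (by decide +kernel) (by decide +kernel)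
  have hy' := eq_of_same hy (by decide +kernel) (by decide +kernel)
  have hz1' := ne_of_not_same hz1 (by decide +kernel) (by decide +kernel)
  have hxz' := eq_of_same hxz (by decide +kernel) (by decide +kernel)
  have hyz' := eq_of_same hyz (by decide +kernel) (by decide +kernel)
  have hgx' := eq_of_same hgx (by decide +kernel) (by decide +kernel)
  have hgz' := eq_of_same hgz (by decide +kernel) (by decide +kernel)
  have hhy' := eq_of_same hhy (by decide +kernel) (by decide +kernel)
  have hhz' := eq_of_same hhz (by decide +kernel) (by decide +kernel)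
  simp only [lprod, mul_one] at hz' hx' hy' hz1' hxz' hyz' hgx' hgz' hhy' hhz'
  refine not_three_dvd_of_extraspecial hσ (x := el 9) (y := el 10) (z := el 11) (g := el 12)
    (h := el 13) (a := 2) (b := 0) (c := 0) (d := 1) (a' := 2) (b' := 1) (c' := 0) (d' := 1)
    ?_ ?_ ?_ hz1' hxz' hyz' ?_ ?_ (by norm_num) ?_ ?_ (by norm_num) ?_
  · rw [mul_inv_eq_iff_eq_mul, mul_inv_eq_iff_eq_mul, hz', mul_assoc]
  · rw [pow_three, hx']
  · rw [pow_three, hy']
  · rw [mul_inv_eq_iff_eq_mul, hgx', pow_two, pow_zero, mul_one, mul_assoc]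
  · rw [mul_inv_eq_iff_eq_mul, hgz', pow_zero, pow_one, one_mul]
  · rw [mul_inv_eq_iff_eq_mul, hhy', pow_two, pow_one, mul_assoc, mul_assoc]
  · rw [mul_inv_eq_iff_eq_mul, hhz', pow_zero, pow_one, one_mul]
  · intro hd
    have hc := closure_card closed_three (by decide +kernel) (by decide +kernel)
    have hl : closure27.length = 27 := by decide +kernel
    have h := Subgroup.index_mul_card (Subgroup.closure {el 9, el 10})
    rw [hc, hl, card_j2Group] at h
    omega

theorem not_five {Γ : Type} [Group Γ] [Finite Γ] {σ : Γ →* j2Group}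
    (hσ : Cfsg.IsStemExtension σ) : ¬ 5 ∣ Nat.card σ.ker := by
  have h := relations_five
  simp only [Bool.and_eq_true] at h
  obtain ⟨⟨⟨hxy, hx⟩, hgx⟩, hgy⟩ := h
  have hxy' := eq_of_same hxy (by decide +kernel) (by decide +kernel)
  have hx' := eq_of_same hx (by decide +kernel) (by decide +kernel)
  have hgx' := eq_of_same hgx (by decide +kernel) (by decide +kernel)
  have hgy' := eq_of_same hgy (by decide +kernel) (by decide +kernel)
  simp only [lprod, mul_one] at hxy' hx' hgx' hgy'
  refine OddSylow.not_dvd_of_square hσ (by norm_num) (x := el 14) (y := el 15) (g := el 16)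
    (a := 1) (b := 0) (c := 1) (d := 4) hxy' ?_ ?_ ?_ (by norm_num) ?_
  · simp only [pow_succ', pow_zero, mul_one]
    exact hx'
  · rw [mul_inv_eq_iff_eq_mul, hgx', pow_one, pow_zero, mul_one]
  · rw [mul_inv_eq_iff_eq_mul, hgy']
    simp only [pow_succ', pow_zero, mul_one, mul_assoc]
  · intro hd
    have hc := closure_card closed_five (by decide +kernel) (by decide +kernel)
    have hl : closure25.length = 25 := by decide +kernel
    have h := Subgroup.index_mul_card (Subgroup.closure {el 14, el 15})
    rw [hc, hl, card_j2Group] at h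
    omega

/-! ### The double cover -/

theorem exists_even_neg : ∃ g : twoJ2, setHom g = 1 ∧ IsSign g (-1) ∧
    g = (evenNegWord.map fun k => if h : k < 4 then seedG ⟨k, h⟩ else 1).prod := by
  have hu := even_word_unit
  simp only [Bool.and_eq_true, List.all_eq_true, decide_eq_true_eq, beq_iff_eq, Q.eqb_iff] at hu
  obtain ⟨⟨hi0, hunit⟩, hlt⟩ := hu
  obtain ⟨g, hj, -, e, hg⟩ := wordAct_spec evenNegWord hlt ⟨0, by norm_num⟩
  have hperm : setHom g = 1 := by
    have hval : wordValid setGens evenNegWord = true := by decide +kernel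
    have hw : ∀ w : List ℕ, (∀ k ∈ w, k < 4) →
        setHom (w.map fun k => if h : k < 4 then seedG ⟨k, h⟩ else 1).prod =
          wordPerm7 100 setGens w := by
      intro w
      induction w with
      | nil => intro _; exact map_one _
      | cons k w ih =>
        intro h
        rw [List.map_cons, List.prod_cons, map_mul, dif_pos (h k (List.mem_cons_self ..)),
          setHom_seed, ih fun a ha => h a (List.mem_cons_of_mem _ ha)]
        rfl
    rw [hg, hw _ hlt]
    have hid := even_word_perm
    simp only [List.all_eq_true, List.mem_range, beq_iff_eq] at hid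
    exact Equiv.ext fun x => Fin.ext (by
      rw [wordPerm7_apply setGens_perm hval, hid x.1 x.2]; rfl)
  refine ⟨g, hperm, (ker_cases hperm).resolve_left fun h1 => ?_, hg⟩
  rw [hi0, hunit, Q.toH_neg, Q.toH_one] at e
  have h0 := congrFun e 0
  rw [h1 (lineElem _)] at h0
  have h2 : Q.toH (lineVec 0).x = (-1 : ℍ[ℝ]) * Q.toH (lineVec 0).x := by
    simpa [lineElem, lsmul, V.toV] using h0
  have h3 : Q.toH (lineVec 0).x = 0 := by
    apply smul_right_injective ℍ[ℝ] (two_ne_zero (α := ℝ))
    show (2 : ℝ) • Q.toH (lineVec 0).x = (2 : ℝ) • (0 : ℍ[ℝ])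
    rw [neg_one_mul] at h2
    linear_combination (norm := module) h2
  rw [toH_eq_zero_iff] at h3
  exact absurd h3 (by decide +kernel)

theorem sign_ne_one {g : twoJ2} (h : IsSign g (-1)) : g ≠ 1 := by
  rintro rfl
  have h1 := congrFun (h (lineElem ⟨0, by norm_num⟩)) 0
  have h2 : Q.toH (lineVec 0).x = (-1 : ℝ) • Q.toH (lineVec 0).x := h1
  have h3 : Q.toH (lineVec 0).x = 0 := by
    apply smul_right_injective ℍ[ℝ] (two_ne_zero (α := ℝ))
    show (2 : ℝ) • Q.toH (lineVec 0).x = (2 : ℝ) • (0 : ℍ[ℝ])
    linear_combination (norm := module) h2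
  rw [toH_eq_zero_iff] at h3
  exact absurd h3 (by decide +kernel)

theorem center_le_commutator : Subgroup.center twoJ2 ≤ commutator twoJ2 := by
  have : Finite twoJ2 := Nat.finite_of_card_ne_zero (by rw [natCard_twoJ2]; norm_num)
  obtain ⟨g, hg1, hneg, hg⟩ := exists_even_neg
  have hgc : g ∈ Subgroup.center twoJ2 := ker_setHom ▸ MonoidHom.mem_ker.2 hg1
  have hsub : ({1, g} : Set twoJ2) = (Subgroup.center twoJ2 : Set twoJ2) := by
    refine Set.eq_of_subset_of_ncard_le ?_ ?_ (Set.toFinite _)
    · rintro x (rfl | rfl)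
      exacts [one_mem _, hgc]
    · rw [Set.ncard_pair (sign_ne_one hneg).symm, ← Nat.card_coe_set_eq]
      exact center_card.le
  suffices hgm : g ∈ commutator twoJ2 by
    intro x hx
    rw [← SetLike.mem_coe, ← hsub] at hx
    rcases hx with rfl | rfl
    exacts [one_mem _, hgm]
  rw [← Abelianization.ker_of, MonoidHom.mem_ker]
  set q := (Abelianization.of : twoJ2 →* Abelianization twoJ2)
  have hconj : ∀ k : Fin 4, q (seedG k) = q (seedG 0) := by
    intro k
    obtain ⟨c, hc, e⟩ := exists_conj_seed ⟨seedLines.getD k.1 0, seed_lt k.2⟩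
    have : seedG k = ⟨c, hc⟩ * seedG 0 * ⟨c, hc⟩⁻¹ := Subtype.ext e.symm
    rw [this, map_mul, map_mul, map_inv, mul_comm (q _) (q (seedG 0)), mul_inv_cancel_right]
  have hsq : q (seedG 0) * q (seedG 0) = 1 := by
    have : seedG 0 * seedG 0 = 1 := Subtype.ext (Equiv.ext fun x => Subtype.ext
      (qrefl_qrefl (isGood_seed (k := 0) (by norm_num)).norm x.1))
    rw [← map_mul, this, map_one]
  have hlt : ∀ k ∈ evenNegWord, k < 4 := by decide +kernel
  have hw : ∀ w : List ℕ, (∀ k ∈ w, k < 4) →
      q (w.map fun k => if h : k < 4 then seedG ⟨k, h⟩ else 1).prod = q (seedG 0) ^ w.length := by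
    intro w
    induction w with
    | nil => intro _; exact map_one _
    | cons k w ih =>
      intro h
      rw [List.map_cons, List.prod_cons, map_mul, dif_pos (h k (List.mem_cons_self ..)), hconj,
        ih fun a ha => h a (List.mem_cons_of_mem _ ha), List.length_cons, pow_succ']
  rw [hg, hw _ hlt, show evenNegWord.length = 2 * 21 by decide +kernel, pow_mul, pow_two, hsq,
    one_pow]

/-- The Schur multiplier of the Hall–Janko group is cyclic of order two. -/
theorem hasCyclicSchurMultiplier_J2 : Cfsg.HasCyclicSchurMultiplier Cfsg.Spor.J2 2 := by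
  set π := QuotientGroup.mk' (Subgroup.center twoJ2)
  have hker : π.ker = Subgroup.center twoJ2 := QuotientGroup.ker_mk' _
  have hfin : Finite twoJ2 := Nat.finite_of_card_ne_zero (by rw [natCard_twoJ2]; norm_num)
  have hc2 : Nat.card π.ker = 2 := by rw [hker]; exact center_card
  haveI : IsCyclic π.ker := isCyclic_of_prime_card (hp := ⟨Nat.prime_two⟩) hc2
  refine ⟨⟨twoJ2, inferInstance, hfin, π,
    ⟨QuotientGroup.mk'_surjective _, hker.le, hker.le.trans center_le_commutator⟩, ⟨?_⟩⟩,
    fun Γ _ _ σ₀ hσ₀ => ?_⟩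
  · exact (zmodCyclicMulEquiv inferInstance).symm.trans
      (AddEquiv.toMultiplicative (ZMod.ringEquivCongr hc2).toAddEquiv)
  set σ := equivJ2.toMonoidHom.comp σ₀ with hσdef
  have hkk : σ.ker = σ₀.ker := MonoidHom.ker_mulEquiv_comp σ₀ equivJ2
  have hσ : Cfsg.IsStemExtension σ :=
    ⟨equivJ2.surjective.comp hσ₀.1, hkk ▸ hσ₀.2.1, hkk ▸ hσ₀.2.2⟩
  obtain ⟨w, hw, hz⟩ := two_part hσ
  rw [← hkk]
  have hodd : ∀ p : ℕ, p.Prime → p ∣ Nat.card σ.ker → p = 2 := fun p hp hpk => by
    by_contra h2
    by_cases h3 : p = 3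
    · subst h3; exact not_three hσ hpk
    by_cases h5 : p = 5
    · subst h5; exact not_five hσ hpk
    refine not_dvd_card_ker_of_sq_not_dvd hσ hp ?_ hpk
    rw [card_factor]
    intro hsq
    have hpd : p ∣ 2 ^ 7 * (3 ^ 3 * 5 ^ 2 * 7) := (dvd_pow_self p two_ne_zero).trans hsq
    have h7 : p = 7 := by
      simp only [hp.dvd_mul] at hpd
      rcases hpd with h | (h | h) | h
      · exact absurd ((Nat.prime_dvd_prime_iff_eq hp Nat.prime_two).1 (hp.dvd_of_dvd_pow h)) h2
      · exact absurd ((Nat.prime_dvd_prime_iff_eq hp Nat.prime_three).1 (hp.dvd_of_dvd_pow h)) h3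
      · exact absurd ((Nat.prime_dvd_prime_iff_eq hp Nat.prime_five).1 (hp.dvd_of_dvd_pow h)) h5
      · exact (Nat.prime_dvd_prime_iff_eq hp (by norm_num)).1 h
    subst h7
    norm_num at hsq
  have htwo := Nat.eq_prime_pow_of_unique_prime_dvd (n := Nat.card σ.ker) Nat.card_pos.ne'
    fun {d} hd hdd => hodd d hd hdd
  have hle : σ.ker ≤ Subgroup.zpowers w := fun z hzk =>
    hz z hzk (Nat.card σ.ker).primeFactorsList.length (by
      have := pow_card_eq_one' (G := σ.ker) (x := ⟨z, hzk⟩)
      rw [htwo] at this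
      exact congrArg Subtype.val this)
  have hdvd : Nat.card σ.ker ∣ 2 := (Subgroup.card_dvd_of_le hle).trans
    (by rw [Nat.card_zpowers]; exact orderOf_dvd_of_pow_eq_one hw)
  rcases (Nat.dvd_prime Nat.prime_two).1 hdvd with h1 | h1
  · haveI := (Nat.card_eq_one_iff_unique.1 h1).1
    exact ⟨1, fun z => ⟨1, Subsingleton.elim _ _⟩⟩
  · haveI : IsCyclic σ.ker := isCyclic_of_prime_card (hp := ⟨Nat.prime_two⟩) h1
    let e : Multiplicative (ZMod 2) ≃* σ.ker :=
      (AddEquiv.toMultiplicative (ZMod.ringEquivCongr h1.symm).toAddEquiv).trans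
        (zmodCyclicMulEquiv inferInstance)
    exact ⟨e.toMonoidHom, e.surjective⟩

end CfsgLib.J2Ico.Mult
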