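import Cfsg.Agent.Lib.J2Ico.MultData
import Cfsg.Agent.Lib.J2Ico.GroupCheck

/-! Kernel checks of the certificates for the multiplier of the Hall–Janko group. -/

set_option autoImplicit false
set_option maxRecDepth 100000

namespace CfsgLib.J2Ico.Mult

open CfsgLib.SchurMult CfsgLib.Mathieu CfsgLib.Mathieu.GraphAut

/-- Whether the codes are the listed words. -/
def memOk : Bool :=
  codes.length == codeWords.length && (List.range codes.length).all fun i =>
    isPerm7 100 (codes.getD i 0) && wordValid J2Cert.gensP (codeWords.getD i []) &&
      (List.range 100).all fun x =>
        app7 (codes.getD i 0) x == word7 J2Cert.gensP (codeWords.getD i []) x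

theorem mem_ok : memOk = true := by decide +kernel

/-- Whether two words in the codes agree. -/
def same (u w : List ℕ) : Bool := (List.range 100).all fun x => word7 codes u x == word7 codes w x

theorem table_ok : col.tableOK = true := by decide +kernel

theorem rels_ok : (col.rels.all fun r =>
    wordValid codes r.1 && wordValid codes r.2 && same r.1 r.2) = true := by decide +kernel

/-- Whether the conjugations hold. -/
def conjOk : Bool :=
  col.eqs.all fun e =>
    match e with
    | .assoc _ _ => true
    | .conj k m _ => decide (conjStart + k < codes.length) && m.all fun q =>
        same ((conjStart + k) :: Collector.digits col.n q.1)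
          (Collector.digits col.n q.2 ++ [conjStart + k])

theorem conj_ok : conjOk = true := by decide +kernel

/-- The images of the base points under a word. -/
def wordKey (w : List ℕ) : List ℕ := [0, 1, 21, 25, 20].map (word7 codes w)

theorem nf_distinct :
    decide ((List.range 128).map fun x => wordKey (Collector.digits col.n x)).Nodup = true := by
  decide +kernel

theorem pair_ok : (decide (pairX < 2 ^ col.n) && decide (pairY < 2 ^ col.n) &&
    (col.mulNF pairX pairY).1 == (col.mulNF pairY pairX).1 && (col.mulNF pairX pairX).1 == 0 &&
    col.solvedOneOK (pairComm col pairX pairY) extra) = true := by decide +kernel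

theorem relations_three : (same [9, 10] [11, 10, 9] && same [9, 9, 9] [] && same [10, 10, 10] [] &&
    !same [11] [] && same [9, 11] [11, 9] && same [10, 11] [11, 10] &&
    same [12, 9] [9, 9, 12] && same [12, 11] [11, 12] &&
    same [13, 10] [10, 10, 11, 13] && same [13, 11] [11, 13]) = true := by decide +kernel

theorem relations_five : (same [14, 15] [15, 14] && same [14, 14, 14, 14, 14] [] &&
    same [16, 14] [14, 16] && same [16, 15] [14, 15, 15, 15, 15, 16]) = true := by decide +kernel

/-- Whether the listed words in two codes are distinct and closed. -/
def closedOk (a b : ℕ) (ws : List (List ℕ)) : Bool :=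
  let us := ws.map fun w => w.map fun i => if i == 0 then a else b
  us.all (wordValid codes) && decide (us.map wordKey).Nodup && us.any (fun u => same u []) &&
    us.all fun u => us.any (same (a :: u)) && us.any (same (b :: u))

theorem closed_three : closedOk 9 10 closure27 = true := by decide +kernel

theorem closed_five : closedOk 14 15 closure25 = true := by decide +kernel

theorem even_word_perm : ((List.range 100).all fun x => word7 setGens evenNegWord x == x) = true := by
  decide +kernel

theorem even_word_unit : ((wordAct evenNegWord 0).1 == 0 && (wordAct evenNegWord 0).2.eqb Q.one.neg &&
    evenNegWord.all (fun k => decide (k < 4))) = true := by decide +kernel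

end CfsgLib.J2Ico.Mult
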