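import Mathlib

/-! A computable field with nine elements. -/

set_option autoImplicit false

namespace CfsgLib.J2Ico.NineField

/-- Residues `re + i·im` with `i² = -1` modulo three. -/
structure K where
  re : ZMod 3
  im : ZMod 3
deriving DecidableEq

/-- As pairs. -/
def K.equivProd : K ≃ ZMod 3 × ZMod 3 where
  toFun a := (a.re, a.im)
  invFun p := ⟨p.1, p.2⟩
  left_inv _ := rfl
  right_inv _ := rfl

instance : Fintype K := Fintype.ofEquiv _ K.equivProd.symm

instance : Zero K := ⟨⟨0, 0⟩⟩
instance : One K := ⟨⟨1, 0⟩⟩
instance : Add K := ⟨fun a b => ⟨a.re + b.re, a.im + b.im⟩⟩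
instance : Neg K := ⟨fun a => ⟨-a.re, -a.im⟩⟩
instance : Mul K := ⟨fun a b => ⟨a.re * b.re - a.im * b.im, a.re * b.im + a.im * b.re⟩⟩
instance : Inv K := ⟨fun a => ⟨(a.re * a.re + a.im * a.im) * a.re, -((a.re * a.re + a.im * a.im) * a.im)⟩⟩

instance : CommRing K where
  add_assoc := by decide +kernel
  zero_add := by decide +kernel
  add_zero := by decide +kernel
  add_comm := by decide +kernel
  neg_add_cancel := by decide +kernel
  nsmul := nsmulRec
  zsmul := zsmulRec
  mul_assoc := by decide +kernel
  one_mul := by decide +kernel
  mul_one := by decide +kernel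
  left_distrib := by decide +kernel
  right_distrib := by decide +kernel
  zero_mul := by decide +kernel
  mul_zero := by decide +kernel
  mul_comm := by decide +kernel

instance : Field K where
  exists_pair_ne := ⟨0, 1, by decide +kernel⟩
  mul_inv_cancel := by decide +kernel
  inv_zero := by decide +kernel
  nnqsmul := _
  qsmul := _

theorem card_K : Fintype.card K = 9 := by decide +kernel

end CfsgLib.J2Ico.NineField
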