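import Cfsg.Agent.Lib.J2Ico.PointStabData
import Cfsg.Agent.Lib.J2Ico.Group
import Cfsg.Agent.Lib.ClassicalForms.Unitary.Center

/-!
A point stabiliser of the Hall–Janko permutation group is `SU(3,3)`, both acting on the 63
non-isotropic points of the unitary plane.
-/

set_option autoImplicit false
set_option Elab.async false
set_option maxRecDepth 100000

namespace CfsgLib.J2Ico.PointStab

open MulAction Matrix CfsgLib.Mathieu CfsgLib.Mathieu.GraphAut CfsgLib.Mathieu.RankThree
  CfsgLib.Mathieu.J2Cert CfsgLib.Mathieu.J2 CfsgLib.J2Ico.NineField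

/-- The point stabiliser. -/
noncomputable abbrev H0 : Subgroup j2Group := stabilizer j2Group (0 : Fin 100)

theorem index_H0 : H0.index = 100 := by
  have := transitive
  rw [index_stabilizer_of_transitive j2Group (0 : Fin 100), Nat.card_eq_fintype_card,
    Fintype.card_fin]

theorem card_H0 : Nat.card H0 = 6048 := by
  have h := H0.index_mul_card
  rw [index_H0, card_j2Group] at h
  omega

/-! ### The far suborbit -/

/-- Whether a point is far from the base point. -/
def farB (x : Fin 100) : Bool := decide (x ≠ 0) && !(packAt rows 100 0).testBit x.1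

theorem farList_ok : (decide (farList.length = 63) &&
    (List.range 100).all fun x => if h : x < 100 then farB ⟨x, h⟩ == farList.contains x else true) &&
    decide farList.Nodup && farList.all (fun x => decide (x < 100)) = true := by decide +kernel

theorem farB_iff (g : H0) (x : Fin 100) :
    farB (((g : j2Group) : Equiv.Perm (Fin 100)) x) = farB x := by
  have h0 : ((g : j2Group) : Equiv.Perm (Fin 100)) 0 = 0 := g.2
  have e := mem_rowAut.1 (j2Group_le g.1.2) 0 x
  rw [h0] at e
  have hne : decide (((g : j2Group) : Equiv.Perm (Fin 100)) x ≠ 0) = decide (x ≠ 0) :=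
    decide_eq_decide.2 ⟨fun h h' => h (by rw [h', h0]), fun h h' => h
      ((((g : j2Group) : Equiv.Perm (Fin 100))).injective (h'.trans h0.symm))⟩
  simp only [farB, hne]
  exact congrArg (fun b => decide (x ≠ 0) && !b) e

/-- A listed far point. -/
def farPt (i : Fin 63) : Fin 100 := ⟨farList.getD i.1 0 % 100, Nat.mod_lt _ (by norm_num)⟩

theorem farPt_spec : (∀ i, farB (farPt i) = true) ∧ Function.Injective farPt ∧
    ∀ x, farB x = true → ∃ i, farPt i = x := by
  refine ⟨?_, ?_, ?_⟩
  · decide +kernel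
  · intro i j; revert i j; decide +kernel
  · decide +kernel

/-- The far points numbered. -/
noncomputable def farEquiv : Fin 63 ≃ {x : Fin 100 // farB x = true} :=
  Equiv.ofBijective (fun i => ⟨farPt i, farPt_spec.1 i⟩)
    ⟨fun _ _ h => farPt_spec.2.1 (congrArg Subtype.val h),
      fun x => (farPt_spec.2.2 x.1 x.2).imp fun _ h => Subtype.ext h⟩

/-- The action of the stabiliser on the far suborbit. -/
noncomputable def farHom : H0 →* Equiv.Perm (Fin 63) where
  toFun g := farEquiv.symm.permCongr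
    (((g : j2Group) : Equiv.Perm (Fin 100)).subtypePerm fun x => by rw [farB_iff])
  map_one' := Equiv.ext fun i => by
    simp [Equiv.permCongr_apply]
  map_mul' g h := Equiv.ext fun i => by
    simp [Equiv.permCongr_apply, Equiv.Perm.subtypePerm_apply]

theorem farPt_farHom (g : H0) (i : Fin 63) :
    farPt (farHom g i) = ((g : j2Group) : Equiv.Perm (Fin 100)) (farPt i) := by
  show (farEquiv (farHom g i) : Fin 100) = _
  simp only [farHom, MonoidHom.coe_mk, OneHom.coe_mk, Equiv.permCongr_apply,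
    Equiv.apply_symm_apply, Equiv.symm_symm, Equiv.Perm.subtypePerm_apply]
  rfl

theorem fix_far : checkUp7 100 rows [] (0 :: farList) [] = true := by decide +kernel

theorem farHom_injective : Function.Injective farHom := by
  rw [← MonoidHom.ker_eq_bot_iff, Subgroup.eq_bot_iff_forall]
  intro g hg
  have h1 := card_le7 [] (0 :: farList) fix_far
  have hbot : fixPts (rowAut 100 rows) (0 :: farList) = ⊥ :=
    Subgroup.eq_bot_of_card_le _ (by simpa [levelProd] using h1)
  have hmem : ((g : j2Group) : Equiv.Perm (Fin 100)) ∈ fixPts (rowAut 100 rows) (0 :: farList) := by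
    refine mem_fixPts.2 ⟨j2Group_le g.1.2, fun x hx => ?_⟩
    rcases List.mem_cons.1 hx with hx | hx
    · obtain rfl : x = 0 := Fin.ext hx
      exact g.2
    · obtain ⟨i, rfl⟩ : ∃ i, farPt i = x := farPt_spec.2.2 x (by
        have h := farList_ok
        simp only [Bool.and_eq_true, List.all_eq_true, List.mem_range] at h
        have hb := h.1.1.2 x.1 x.2
        rw [dif_pos x.2, beq_iff_eq] at hb
        exact hb.trans (List.contains_iff_mem.2 hx))
      rw [← farPt_farHom, MonoidHom.mem_ker.1 hg]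
      rfl
  rw [hbot, Subgroup.mem_bot] at hmem
  exact Subtype.ext (Subtype.ext hmem)

theorem hGens_ok : ((List.range 2).all fun k => isPerm7 100 (hGens.getD k 0) &&
    wordValid gensP (hWords.getD k []) && app7 (hGens.getD k 0) 0 == 0 &&
    ((List.range 100).all fun x => app7 (hGens.getD k 0) x == word7 gensP (hWords.getD k []) x) &&
    (List.range 63).all fun i =>
      app7 (hGens.getD k 0) (farList.getD i 0) == farList.getD ((actPerms.getD k []).getD i 63) 100 &&
        decide ((actPerms.getD k []).getD i 63 < 63)) = true := by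
  decide +kernel

theorem hGens_length : hGens.length = 2 := by decide +kernel

theorem hLevels_ok : checkLow7 100 hGens [] hLevels = true ∧ levelProd hLevels = 6048 := by
  constructor <;> decide +kernel

theorem hGen_spec (k : Fin 2) : isPerm7 100 (hGens.getD k.1 0) = true ∧
    perm7 100 (hGens.getD k.1 0) ∈ j2Group ∧ perm7 100 (hGens.getD k.1 0) 0 = 0 := by
  have h := hGens_ok
  simp only [List.all_eq_true, List.mem_range, Bool.and_eq_true, beq_iff_eq] at h
  obtain ⟨⟨⟨⟨hp, hv⟩, h0⟩, hw⟩, -⟩ := h k.1 k.2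
  refine ⟨hp, ?_, Fin.ext ((perm7_apply hp 0).trans h0)⟩
  have he : perm7 100 (hGens.getD k.1 0) = wordPerm7 100 gensP (hWords.getD k.1 []) :=
    Equiv.ext fun x => Fin.ext (by rw [perm7_apply hp, wordPerm7_apply gens_perm hv, hw x.1 x.2])
  rw [he]
  exact wordPerm7_mem perm7_mem_gen7 hv

/-- A generator of the stabiliser. -/
noncomputable def hGen (k : Fin 2) : H0 :=
  ⟨⟨_, (hGen_spec k).2.1⟩, (hGen_spec k).2.2⟩

theorem closure_hGen : Subgroup.closure (Set.range hGen) = ⊤ := by
  refine Subgroup.eq_top_of_card_eq _ (le_antisymm (Subgroup.card_le_card_group _) ?_)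
  let f : H0 →* Equiv.Perm (Fin 100) := j2Group.subtype.comp H0.subtype
  have hf : Function.Injective f := fun a b e => Subtype.ext (Subtype.ext e)
  rw [card_H0, ← hLevels_ok.2, ← Subgroup.card_map_of_injective hf]
  refine card_ge7 (fun c hc => ?_) (fun c hc => ?_) hLevels_ok.1
  all_goals
    obtain ⟨n, hn, rfl⟩ := List.getElem_of_mem hc
    rw [← List.getD_eq_getElem _ 0 hn]
    have hn2 : n < 2 := hGens_length ▸ hn
  · exact (hGen_spec ⟨n, hn2⟩).1
  · exact ⟨hGen ⟨n, hn2⟩, Subgroup.subset_closure ⟨_, rfl⟩, rfl⟩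

theorem farHom_hGen (k : Fin 2) (i : Fin 63) :
    (farHom (hGen k) i).1 = (actPerms.getD k.1 []).getD i.1 63 := by
  have h := hGens_ok
  simp only [List.all_eq_true, List.mem_range, Bool.and_eq_true, beq_iff_eq,
    decide_eq_true_eq] at h
  obtain ⟨he, hlt⟩ := (h k.1 k.2).2 i.1 i.2
  have hl : ∀ j : Fin 63, farList.getD j.1 0 % 100 = farList.getD j.1 0 ∧
      farList.getD j.1 100 = farList.getD j.1 0 := by decide +kernel
  have e := congrArg Fin.val (farPt_farHom (hGen k) i)
  have hj : farPt (farHom (hGen k) i) = farPt ⟨_, hlt⟩ := by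
    refine Fin.ext (e.trans ?_)
    show (perm7 100 (hGens.getD k.1 0) (farPt i)).1 = _
    rw [perm7_apply (hGen_spec k).1]
    show app7 _ (farList.getD i.1 0 % 100) = farList.getD _ 0 % 100
    rw [(hl i).1, (hl ⟨_, hlt⟩).1, he, (hl ⟨_, hlt⟩).2]
  exact congrArg Fin.val (farPt_spec.2.1 hj)

/-! ### The unitary side -/

/-- A non-isotropic point. -/
def point (i : Fin 63) : Fin 3 → K := points.getD i.1 0

set_option maxHeartbeats 20000000 in
theorem points_ok : (∀ i, Cfsg.hermForm 3 K 3 (point i) (point i) ≠ 0) ∧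
    (∀ v : Fin 3 → K, Cfsg.hermForm 3 K 3 v v ≠ 0 → ∃ i, ∃ c : K, c • point i = v) ∧
    ∀ i j, (∃ c : K, c • point i = point j) → i = j := by
  refine ⟨?_, ?_, ?_⟩
  · decide +kernel
  · have h : ∀ (p : ZMod 3) (q : ZMod 3) (b c : K),
        Cfsg.hermForm 3 K 3 ![K.equivProd.symm (p, q), b, c] ![K.equivProd.symm (p, q), b, c] ≠ 0 →
          ∃ i, ∃ t : K, t • point i = ![K.equivProd.symm (p, q), b, c] := by
      intro p
      fin_cases p <;> decide +kernel
    intro v
    have e : v = ![K.equivProd.symm ((K.equivProd (v 0)).1, (K.equivProd (v 0)).2), v 1, v 2] := by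
      ext j
      fin_cases j <;> simp
    rw [e]
    exact h _ _ _ _
  · decide +kernel

/-- The matrix of an element. -/
abbrev mat (g : Cfsg.SU 3 K 3) : Matrix (Fin 3) (Fin 3) K :=
  ((g : Matrix.SpecialLinearGroup (Fin 3) K) : Matrix (Fin 3) (Fin 3) K)

theorem exists_image (g : Cfsg.SU 3 K 3) (i : Fin 63) :
    ∃ j, ∃ c : K, c • point j = mat g *ᵥ point i := by
  refine points_ok.2.1 _ ?_
  rw [show Cfsg.hermForm 3 K 3 (mat g *ᵥ point i) (mat g *ᵥ point i) =
    Cfsg.hermForm 3 K 3 (point i) (point i) from g.2 _ _]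
  exact points_ok.1 i

/-- The image of a point. -/
noncomputable def image (g : Cfsg.SU 3 K 3) (i : Fin 63) : Fin 63 := (exists_image g i).choose

theorem image_eq {g : Cfsg.SU 3 K 3} {i j : Fin 63} {c : K} (h : c • point j = mat g *ᵥ point i) :
    image g i = j := by
  obtain ⟨d, hd⟩ := (exists_image g i).choose_spec
  refine (points_ok.2.2 _ _ ⟨c⁻¹ * d, ?_⟩)
  have hc : c ≠ 0 := by
    rintro rfl
    rw [zero_smul] at h
    refine points_ok.1 i ((show Cfsg.hermForm 3 K 3 (mat g *ᵥ point i) (mat g *ᵥ point i) =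
      Cfsg.hermForm 3 K 3 (point i) (point i) from g.2 _ _) ▸ ?_)
    rw [← h]
    decide +kernel
  rw [mul_smul, image, hd, ← h, smul_smul, inv_mul_cancel₀ hc, one_smul]

theorem image_one (i : Fin 63) : image 1 i = i :=
  image_eq (c := 1) (by simp [mat])

theorem image_mul (g h : Cfsg.SU 3 K 3) (i : Fin 63) :
    image (g * h) i = image g (image h i) := by
  obtain ⟨c, hc⟩ := (exists_image h i).choose_spec
  obtain ⟨d, hd⟩ := (exists_image g (image h i)).choose_spec
  refine image_eq (c := c * d) ?_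
  rw [mul_smul, image, hd, ← Matrix.mulVec_smul, image, hc, Matrix.mulVec_mulVec]
  rfl

/-- The action on the non-isotropic points. -/
noncomputable def pointHom : Cfsg.SU 3 K 3 →* Equiv.Perm (Fin 63) where
  toFun g :=
    { toFun := image g
      invFun := image g⁻¹
      left_inv := fun i => by rw [← image_mul, inv_mul_cancel, image_one]
      right_inv := fun i => by rw [← image_mul, mul_inv_cancel, image_one] }
  map_one' := Equiv.ext image_one
  map_mul' g h := Equiv.ext (image_mul g h)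

theorem natCard_K : Nat.card K = 3 ^ 2 := by rw [Nat.card_eq_fintype_card, card_K]; norm_num

theorem center_bot : Subgroup.center (Cfsg.SU 3 K 3) = ⊥ :=
  Subgroup.card_eq_one.1 (by
    rw [ClassicalForms.card_center_su natCard_K (by norm_num)]; decide)

theorem card_SU : Nat.card (Cfsg.SU 3 K 3) = 6048 := by
  have h := ClassicalForms.card_gu_eq_mul_su (n := 3) natCard_K (by norm_num)
  rw [ClassicalForms.card_gu natCard_K 3] at h
  norm_num [Finset.prod_range_succ, Nat.even_iff] at h
  omega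

theorem pointHom_injective : Function.Injective pointHom := by
  rw [← MonoidHom.ker_eq_bot_iff, ← center_bot]
  refine le_antisymm (fun g hg => ?_) (center_bot ▸ bot_le)
  have hfix : ∀ i, ∃ c : K, c • point i = mat g *ᵥ point i := fun i => by
    have h : image g i = i := Equiv.ext_iff.1 (MonoidHom.mem_ker.1 hg) i
    obtain ⟨c, hc⟩ := (exists_image g i).choose_spec
    exact ⟨c, by rwa [show (exists_image g i).choose = i from h] at hc⟩
  have hall : ∀ v : Fin 3 → K, Cfsg.hermForm 3 K 3 v v ≠ 0 → ∃ c : K, mat g *ᵥ v = c • v := by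
    intro v hv
    obtain ⟨i, d, rfl⟩ := points_ok.2.1 v hv
    obtain ⟨c, hc⟩ := hfix i
    exact ⟨c, by rw [Matrix.mulVec_smul, ← hc, smul_comm]⟩
  obtain ⟨a, ha⟩ := hall ![1, 0, 0] (by decide +kernel)
  obtain ⟨b, hb⟩ := hall ![0, 1, 0] (by decide +kernel)
  obtain ⟨c, hc⟩ := hall ![0, 0, 1] (by decide +kernel)
  obtain ⟨d, hd⟩ := hall ![1, 1, 0] (by decide +kernel)
  obtain ⟨e, he⟩ := hall ![0, 1, 1] (by decide +kernel)
  have hM : mat g = a • (1 : Matrix (Fin 3) (Fin 3) K) := by
    have a0 := congrFun ha 0; have a1 := congrFun ha 1; have a2 := congrFun ha 2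
    have b0 := congrFun hb 0; have b1 := congrFun hb 1; have b2 := congrFun hb 2
    have c0 := congrFun hc 0; have c1 := congrFun hc 1; have c2 := congrFun hc 2
    have d0 := congrFun hd 0; have d1 := congrFun hd 1
    have e1 := congrFun he 1; have e2 := congrFun he 2
    simp [Matrix.mulVec, dotProduct, Fin.sum_univ_three] at a0 a1 a2 b0 b1 b2 c0 c1 c2 d0 d1 e1 e2
    ext i j
    fin_cases i <;> fin_cases j <;> simp <;> grind
  refine Subgroup.mem_center_iff.2 fun h => Subtype.ext (Subtype.ext ?_)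
  show mat h * mat g = mat g * mat h
  rw [hM, Matrix.mul_smul, Matrix.smul_mul, Matrix.mul_one, Matrix.one_mul]

/-- The listed matrices. -/
def matGen (k : Fin 2) : Matrix (Fin 3) (Fin 3) K := if k.1 = 0 then mat0 else mat1

theorem matGen_ok : ∀ k, (matGen k).det = 1 ∧ (matGen k).transpose * (matGen k).map (· ^ 3) = 1 ∧
    ∀ i : Fin 63, ∃ c : K, ∀ h : (actPerms.getD k.1 []).getD i.1 63 < 63,
      c • point ⟨_, h⟩ = matGen k *ᵥ point i := by
  decide +kernel

theorem hermForm_eq (u v : Fin 3 → K) :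
    Cfsg.hermForm 3 K 3 u v = u ⬝ᵥ fun i => v i ^ 3 := rfl

theorem matGen_mem (k : Fin 2) :
    (⟨matGen k, (matGen_ok k).1⟩ : Matrix.SpecialLinearGroup (Fin 3) K) ∈ Cfsg.SU 3 K 3 := by
  intro u v
  show Cfsg.hermForm 3 K 3 (matGen k *ᵥ u) (matGen k *ᵥ v) = _
  have hcube : ∀ x y : K, (x + y) ^ 3 = x ^ 3 + y ^ 3 := by decide +kernel
  have he : (fun i => (matGen k *ᵥ v) i ^ 3) = (matGen k).map (· ^ 3) *ᵥ fun i => v i ^ 3 := by
    funext i
    simp [Matrix.mulVec, dotProduct, Fin.sum_univ_three, hcube, mul_pow]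
  rw [hermForm_eq, hermForm_eq, he, Matrix.dotProduct_mulVec, ← Matrix.mulVec_transpose,
    Matrix.mulVec_mulVec, dotProduct_comm]
  have hT : ((matGen k).map (· ^ 3)).transpose * matGen k = 1 := by
    have := congrArg Matrix.transpose (matGen_ok k).2.1
    rwa [Matrix.transpose_mul, Matrix.transpose_transpose, Matrix.transpose_one] at this
  rw [hT, Matrix.one_mulVec, dotProduct_comm]

/-- The preimages of the generators. -/
def uGen (k : Fin 2) : Cfsg.SU 3 K 3 := ⟨_, matGen_mem k⟩

theorem pointHom_uGen (k : Fin 2) : pointHom (uGen k) = farHom (hGen k) := by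
  refine Equiv.ext fun i => ?_
  obtain ⟨c, hc⟩ := (matGen_ok k).2.2 i
  have hlt : (actPerms.getD k.1 []).getD i.1 63 < 63 := farHom_hGen k i ▸ Fin.is_lt _
  show image (uGen k) i = _
  rw [image_eq (g := uGen k) (hc hlt)]
  exact Fin.ext (farHom_hGen k i).symm

theorem range_eq : pointHom.range = farHom.range := by
  refine (Subgroup.eq_of_le_of_card_ge ?_ ?_).symm
  · rw [MonoidHom.range_eq_map, ← closure_hGen, MonoidHom.map_closure, Subgroup.closure_le]
    rintro _ ⟨_, ⟨k, rfl⟩, rfl⟩
    exact ⟨uGen k, pointHom_uGen k⟩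
  · rw [← Nat.card_congr (MonoidHom.ofInjective pointHom_injective).toEquiv,
      ← Nat.card_congr (MonoidHom.ofInjective farHom_injective).toEquiv, card_H0, card_SU]

/-- The point stabiliser is `PSU(3,3)`. -/
noncomputable def equivPSU : H0 ≃* Cfsg.PSU 3 K 3 :=
  (MonoidHom.ofInjective farHom_injective).trans <|
    (MulEquiv.subgroupCongr range_eq.symm).trans <|
      (MonoidHom.ofInjective pointHom_injective).symm.trans <|
        QuotientGroup.quotientBot.symm.trans (QuotientGroup.quotientMulEquivOfEq center_bot.symm)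

/-! ### Subdegrees -/

theorem orbit_eq {S : Finset (Fin 100)} {r : Fin 100}
    (hinv : ∀ g : H0, ((g : j2Group) : Equiv.Perm (Fin 100)) r ∈ S)
    (htrans : ∀ y ∈ S, ∃ g : j2Group, g • (0 : Fin 100) = 0 ∧ g • r = y) :
    orbit H0 r = (S : Set (Fin 100)) := by
  refine Set.Subset.antisymm ?_ fun y hy => ?_
  · rintro _ ⟨g, rfl⟩; exact hinv g
  · obtain ⟨g, hg, hgy⟩ := htrans y hy
    exact ⟨⟨g, hg⟩, hgy⟩

theorem near_inv (g : H0) {x : Fin 100} (hx : x ∈ near) :
    ((g : j2Group) : Equiv.Perm (Fin 100)) x ∈ near := by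
  rw [mem_near] at hx ⊢
  have e := mem_rowAut.1 (j2Group_le g.1.2) 0 x
  rw [show ((g : j2Group) : Equiv.Perm (Fin 100)) 0 = 0 from g.2] at e
  exact e.trans hx

theorem far_inv (g : H0) {x : Fin 100} (hx : x ∈ far) :
    ((g : j2Group) : Equiv.Perm (Fin 100)) x ∈ far := by
  have h : ∀ y : Fin 100, y ∈ far ↔ farB y = true := fun y => by simp [far, farB]
  rw [h] at hx ⊢
  rw [farB_iff, hx]

theorem exists_orbits : ∃ x₁ x₂ : Fin 100,
    (orbit H0 x₁).ncard = 36 ∧ (orbit H0 x₂).ncard = 63 := by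
  have h1 : (⟨1, by norm_num⟩ : Fin 100) ∈ near := mem_near.2 (by decide +kernel)
  have h2 : (⟨37, by norm_num⟩ : Fin 100) ∈ far := by
    rw [far, Finset.mem_filter]; exact ⟨Finset.mem_univ _, by decide, by decide +kernel⟩
  refine ⟨⟨1, by norm_num⟩, ⟨37, by norm_num⟩, ?_, ?_⟩
  · rw [orbit_eq (fun g => near_inv g h1) (fun y hy => data.trans₁ _ h1 y hy),
      Set.ncard_coe_finset, card_near]
  · rw [orbit_eq (fun g => far_inv g h2) (fun y hy => data.trans₂ _ h2 y hy),
      Set.ncard_coe_finset, card_far]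

theorem exists_subgroup : ∃ H : Subgroup Cfsg.Spor.J2, H.index = 100 ∧
    (∃ (F : Type) (_ : Field F) (_ : Fintype F), Fintype.card F = 9 ∧
      Nonempty (↥H ≃* Cfsg.PSU 3 F 3)) ∧
    ∃ c₁ c₂ : Cfsg.Spor.J2 ⧸ H, (orbit ↥H c₁).ncard = 36 ∧ (orbit ↥H c₂).ncard = 63 := by
  set H := H0.comap equivJ2.toMonoidHom with hH
  refine ⟨H, ?_, ⟨K, inferInstance, inferInstance, card_K, ⟨?_⟩⟩, ?_⟩
  · rw [hH, Subgroup.index_comap_of_surjective _ equivJ2.surjective, index_H0]
  · exact ({ toFun := fun x => ⟨equivJ2 x.1, x.2⟩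
             invFun := fun y => ⟨equivJ2.symm y.1, by
               show equivJ2 (equivJ2.symm y.1) ∈ H0
               rw [equivJ2.apply_symm_apply]; exact y.2⟩
             left_inv := fun x => Subtype.ext (equivJ2.symm_apply_apply _)
             right_inv := fun y => Subtype.ext (equivJ2.apply_symm_apply _)
             map_mul' := fun a b => Subtype.ext (map_mul equivJ2 _ _) } : H ≃* H0).trans equivPSU
  have := transitive
  let ψ : Cfsg.Spor.J2 ⧸ H → Fin 100 := fun c =>
    Quotient.liftOn' c (fun g => equivJ2 g • (0 : Fin 100)) fun a b hab => by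
      have h : equivJ2 (a⁻¹ * b) • (0 : Fin 100) = 0 := QuotientGroup.leftRel_apply.1 hab
      rw [map_mul, map_inv, mul_smul, inv_smul_eq_iff] at h
      exact h.symm
  have hψ : Function.Injective ψ := by
    intro c d
    refine Quotient.inductionOn₂' c d fun a b h => ?_
    apply QuotientGroup.eq.2
    show equivJ2 (a⁻¹ * b) • (0 : Fin 100) = 0
    have h' : equivJ2 a • (0 : Fin 100) = equivJ2 b • (0 : Fin 100) := h
    rw [map_mul, map_inv, mul_smul, inv_smul_eq_iff, h']
  have himg : ∀ g : Cfsg.Spor.J2, ψ '' orbit H (QuotientGroup.mk g : Cfsg.Spor.J2 ⧸ H) =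
      orbit H0 (equivJ2 g • (0 : Fin 100)) := by
    intro g
    ext y
    constructor
    · rintro ⟨_, ⟨k, rfl⟩, rfl⟩
      exact ⟨⟨equivJ2 k.1, k.2⟩, by
        show equivJ2 k.1 • equivJ2 g • (0 : Fin 100) = equivJ2 (k.1 * g) • (0 : Fin 100)
        rw [map_mul, mul_smul]⟩
    · rintro ⟨k, rfl⟩
      refine ⟨_, ⟨⟨equivJ2.symm k.1, ?_⟩, rfl⟩, ?_⟩
      · show equivJ2 (equivJ2.symm k.1) ∈ H0
        rw [equivJ2.apply_symm_apply]; exact k.2
      · show equivJ2 (equivJ2.symm k.1 * g) • (0 : Fin 100) = k.1 • equivJ2 g • (0 : Fin 100)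
        rw [map_mul, equivJ2.apply_symm_apply, mul_smul]
  obtain ⟨x₁, x₂, h₁, h₂⟩ := exists_orbits
  obtain ⟨g₁, hg₁⟩ := exists_smul_eq j2Group (0 : Fin 100) x₁
  obtain ⟨g₂, hg₂⟩ := exists_smul_eq j2Group (0 : Fin 100) x₂
  refine ⟨QuotientGroup.mk (equivJ2.symm g₁), QuotientGroup.mk (equivJ2.symm g₂), ?_, ?_⟩
  · rw [← Set.ncard_image_of_injective _ hψ, himg, equivJ2.apply_symm_apply, hg₁, h₁]
  · rw [← Set.ncard_image_of_injective _ hψ, himg, equivJ2.apply_symm_apply, hg₂, h₂]

end CfsgLib.J2Ico.PointStab
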