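import Cfsg.Agent.Lib.J2Ico.Group
import Cfsg.Agent.Lib.J2Ico.SectionData
import Cfsg.Agent.Lib.Leech.Act

/-!
Coordinates of icosian triples and the finite checks for the map to the Leech lattice.
-/

set_option autoImplicit false
set_option maxRecDepth 100000

namespace CfsgLib.J2Ico.Section

open Cfsg CfsgLib.Leech CfsgLib.J2Ico
open CfsgLib.Golay (idx pt idx_pt pt_idx idx_lt)

/-- The 24 coordinates. -/
def coords (v : V) : List ℤ :=
  [v.x.a0, v.x.b0, v.x.a1, v.x.b1, v.x.a2, v.x.b2, v.x.a3, v.x.b3,
   v.y.a0, v.y.b0, v.y.a1, v.y.b1, v.y.a2, v.y.b2, v.y.a3, v.y.b3,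
   v.z.a0, v.z.b0, v.z.a1, v.z.b1, v.z.a2, v.z.b2, v.z.a3, v.z.b3]

/-- The triple with given coordinates. -/
def ofCoords (c : List ℤ) : V :=
  let f := fun i => c.getD i 0
  ⟨⟨f 0, f 1, f 2, f 3, f 4, f 5, f 6, f 7⟩, ⟨f 8, f 9, f 10, f 11, f 12, f 13, f 14, f 15⟩,
   ⟨f 16, f 17, f 18, f 19, f 20, f 21, f 22, f 23⟩⟩

/-- The scalar of order five. -/
def scalarQ : Q :=
  let f := fun i => scalarCode.getD i 0
  ⟨f 0, f 1, f 2, f 3, f 4, f 5, f 6, f 7⟩

/-- The conjugate scalar. -/
def scalarInv : Q := scalarQ.conj

/-- The image of a triple, as a list. -/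
def imgL (v : V) : List ℤ := (applyM isoMat (coords v)).map (· / 2)

/-- The checks for one triple. -/
def vecOk (v : V) : Bool :=
  v.inLam && (applyM isoMat (coords v)).all (fun a => decide (a % 2 = 0)) && memTest (imgL v) &&
    (applyM isoMat (coords (v.smul scalarQ))).all (fun a => decide (a % 2 = 0)) &&
    decide (applyM xMat (imgL v) = (imgL (v.smul scalarQ)).map (8 * ·))

theorem iso_shape : (decide (isoMat.length = 24) &&
    isoMat.all (fun r => decide (r.length = 24))) = true := by decide +kernel

theorem xMat_ok : matOk xMat = true := by decide +kernel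

theorem gens_vecOk : (lamGens.all fun g => Q.basis.all fun b => vecOk (g.smul b)) = true := by
  decide +kernel

theorem scalar_ok : (scalarQ.isIco && scalarInv.isIco &&
    (scalarInv.mul scalarQ).eqb Q.one && (scalarQ.mul scalarInv).eqb Q.one &&
    !(scalarQ.eqb Q.one) &&
    ((((scalarQ.mul scalarQ).mul scalarQ).mul scalarQ).mul scalarQ).eqb Q.one) = true := by
  decide +kernel

theorem preimages_ok : (decide (preimages.length = gensList.length) &&
    ((List.range gensList.length).all fun i =>
      let c := preimages.getD i []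
      decide (coords (ofCoords c) = c) && (ofCoords c).inLam &&
        decide (applyM isoMat c = (gensList.getD i []).map (2 * ·)))) = true := by
  decide +kernel

/-- The Gram entries of the columns of the map. -/
def gramEntry (q r : ℕ) : ℤ :=
  (if r = q then (if q % 2 = 0 then 8 else 16) else 0) + (if r = q + 1 - 2 * (q % 2) then 8 else 0)

theorem gram_ok : ((List.range 24).all fun q => (List.range 24).all fun r =>
    decide (dotL (colAt isoMat q) (colAt isoMat r) = gramEntry q r)) = true := by decide +kernel

end CfsgLib.J2Ico.Section
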