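/-!
Packed weights for the classes used in the bound on the centraliser.
-/

set_option autoImplicit false

namespace CfsgLib.J2Ico.Section

/-- Packed weights, biased weights, target and biased target for each class. -/
def classW : List (List Int × List Nat × Int × Nat) := [([2129789, -2064511, -2097023, -6291327, -2097279, -2064511, -2097279, 2097025, -2097279, 2097025, 2064001, -2097279, -2129791, 2097025, -2097023, -2097279, 2064513, -2097023, 2097025, 2064513, 2097025, 2097025, 2097025, -2064511], [4398048640893, 4398044446593, 4398044414081, 4398040219777, 4398044413825, 4398044446593, 4398044413825, 4398048608129, 4398044413825, 4398048608129, 4398048575105, 4398044413825, 4398044381313, 4398048608129, 4398044414081, 4398044413825, 4398048575617, 4398044414081, 4398048608129, 4398048575617, 4398048608129, 4398048608129, 4398048608129, 4398044446593], 33553392, 140737521908720),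
  ([67916283773, 68985798529, 262127745, -68453187455, -270549119, -270549119, -68448960639, -266322047, -68453154943, 266354561, -68448928127, -270549119, 266322049, 68453154689, 266322049, 266321793, 266354817, 266322049, 266354561, 266354817, -266322047, 266354561, -266322047, 68448927617], [4465962794877, 4467032309633, 4398308638849, 4329593323649, 4397775961985, 4397775961985, 4329597550465, 4397780189057, 4329593356161, 4398312865665, 4329597582977, 4397775961985, 4398312833153, 4466499665793, 4398312833153, 4398312832897, 4398312865921, 4398312833153, 4398312865665, 4398312865921, 4397780189057, 4398312865665, 4397780189057, 4466495438721], -274894684168, 140462593671160),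
  ([530596093, 538951937, 2080769, -534757375, -2080767, -2113279, -534757375, -2113535, -534757375, 2080769, -534724863, -2080767, 2113281, 534757377, 2080769, 2113537, 2080513, 2080769, 2080769, 2080513, -2113535, 2080769, -2113535, 534757633], [4398577107197, 4398585463041, 4398048591873, 4397511753729, 4398044430337, 4398044397825, 4397511753729, 4398044397569, 4397511753729, 4398048591873, 4397511786241, 4398044430337, 4398048624385, 4398581268481, 4398048591873, 4398048624641, 4398048591617, 4398048591873, 4398048591873, 4398048591617, 4398044397569, 4398048591873, 4398044397569, 4398581268737], -33552400, 140737454802928),
  ([-266321790, -270549118, 270483328, 270516352, 270516352, 270516098, -266321792, -266322048, 270516352, 266321792, -798998146, 270516352, -266354562, -270516352, 266321792, -266354560, 266321790, 266321792, -266354816, -266354818, -266322048, -266354816, -266322048, 266321794], [4397780189314, 4397775961986, 4398316994432, 4398317027456, 4398317027456, 4398317027202, 4397780189312, 4397780189056, 4398317027456, 4398312832896, 4397247512958, 4398317027456, 4397780156542, 4397775994752, 4398312832896, 4397780156544, 4398312832894, 4398312832896, 4397780156288, 4397780156286, 4397780189056, 4397780156288, 4397780189056, 4398312832898], -4294835192, 140733193520136),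
  ([539000701, 534806401, 2097281, -534773631, -68717379711, 2129793, 68184702849, 2097025, -534773887, -2097279, -530612607, -68717379711, -68717412223, 534773633, 68717379713, 2097025, -2129791, -2097023, 68721573761, 2064513, 68721573761, 2097025, 2097025, -68184670335], [4398585511805, 4398581317505, 4398048608385, 4397511737473, 4329329131393, 4398048640897, 4466231213953, 4398048608129, 4397511737217, 4398044413825, 4397515898497, 4329329131393, 4329329098881, 4398581284737, 4466763890817, 4398048608129, 4398044381313, 4398044414081, 4466768084865, 4398048575617, 4466768084865, 4398048608129, 4398048608129, 4329861840769], 33553424, 140737521908752)]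

end CfsgLib.J2Ico.Section
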