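import Cfsg.Agent.Lib.J2Ico.SectionData
import Cfsg.Agent.Lib.J2Ico.SectionWeights
import Cfsg.Agent.Lib.Leech.Orbit
import Cfsg.Agent.Lib.Leech.Layers
import Cfsg.Agent.Lib.Leech.Order
import Cfsg.Agent.Lib.GolayStructure.OrbitSum

/-!
A bound for the centraliser of a given element of order five of `Co0`: a base of six vectors whose
orbits under the centraliser are bounded by inner products with the vectors already fixed.
-/

set_option autoImplicit false
set_option maxRecDepth 100000

namespace CfsgLib.J2Ico.Section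

open Cfsg CfsgLib.Leech CfsgLib.Fischer2 CfsgLib.GolayStructure
open CfsgLib.Golay (idx pt idx_pt pt_idx idx_lt)

/-- Vectors packed with weights powers of 128. -/
def pack128 : List (List ℤ) → List ℤ
  | [] => List.replicate 24 0
  | a :: l => List.zipWith (fun u w => u + 128 * w) a (pack128 l)

/-- Values packed the same way. -/
def target128 : List ℤ → ℤ
  | [] => 0
  | t :: l => t + 128 * target128 l

theorem length_pack128 : ∀ {F : List (List ℤ)}, (∀ a ∈ F, a.length = 24) → (pack128 F).length = 24
  | [], _ => by simp [pack128]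
  | a :: l, h => by
    simp [pack128, h a List.mem_cons_self,
      length_pack128 fun b hb => h b (List.mem_cons_of_mem a hb)]

theorem dot_pack128 {x : GolayPt → ℤ} (hx : sqNorm x = 32) : ∀ (F : List (List ℤ × ℤ)),
    (∀ p ∈ F, p.1.length = 24 ∧ sqNorm (toVec p.1) = 32 ∧ |p.2| ≤ 63) →
    (dotInt (toVec (pack128 (F.map Prod.fst))) x = target128 (F.map Prod.snd) ↔
      ∀ p ∈ F, dotInt (toVec p.1) x = p.2) := by
  intro F
  induction F with
  | nil =>
    intro _
    simp only [List.map_nil, pack128, target128, List.not_mem_nil, IsEmpty.forall_iff, implies_true,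
      iff_true]
    refine Finset.sum_eq_zero fun p _ => ?_
    have h := idx_lt p
    simp only [toVec]
    generalize idx p = i at h
    interval_cases i <;> simp
  | cons a l ih =>
    intro h
    obtain ⟨hl, hn, hs⟩ := h a List.mem_cons_self
    have h' : ∀ p ∈ l, p.1.length = 24 ∧ sqNorm (toVec p.1) = 32 ∧ |p.2| ≤ 63 :=
      fun p hp => h p (List.mem_cons_of_mem a hp)
    have hlen : (pack128 (l.map Prod.fst)).length = 24 := length_pack128 fun b hb => by
      obtain ⟨p, hp, rfl⟩ := List.mem_map.1 hb; exact (h' p hp).1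
    have e : dotInt (toVec (pack128 ((a :: l).map Prod.fst))) x =
        dotInt (toVec a.1) x + 128 * dotInt (toVec (pack128 (l.map Prod.fst))) x := by
      simp only [dotInt, Finset.mul_sum, ← Finset.sum_add_distrib]
      refine Finset.sum_congr rfl fun p _ => ?_
      simp only [toVec, List.map_cons, pack128]
      rw [List.getD_eq_getElem _ _ (by simp [hl, hlen, idx_lt]), List.getElem_zipWith,
        List.getD_eq_getElem _ _ (by simp [hl, idx_lt]),
        List.getD_eq_getElem _ _ (by simp [hlen, idx_lt])]
      ring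
    have hd := two_mul_abs_dotInt_le (toVec a.1) x
    rw [hn, hx] at hd
    rw [e, List.forall_mem_cons, ← ih h', List.map_cons, target128]
    rcases abs_cases (dotInt (toVec a.1) x) with h1 | h1 <;>
      rcases abs_cases a.2 with h2 | h2 <;> constructor <;> intro h3 <;>
      first | omega | exact ⟨by omega, by omega⟩

/-- The list of a vector of the base orbits. -/
def baseL (p : ℕ × ℕ) : List ℤ := (orbits.getD p.1 []).getD p.2 []

/-- The conditions of a class. -/
def condsOf (i : ℕ) : List ((ℕ × ℕ) × ℤ) := (classData.getD i (0, [])).2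

/-- The number of vectors in a class. -/
def countOf (i : ℕ) : ℕ := (classData.getD i (0, [])).1

theorem orbits_ok : ((List.range 6).all fun j => (List.range 5).all fun k =>
    memTest (baseL (j, k)) && decide (dotL (baseL (j, k)) (baseL (j, k)) = 32) &&
      decide (applyM xMat (baseL (j, k)) = (baseL (j, (k + 1) % 5)).map (8 * ·))) = true := by
  decide +kernel

theorem conds_ok : ((List.range 5).all fun i => (condsOf i).all fun p =>
    decide (p.1.1 ≤ i) && decide (p.1.2 < 5) && decide (|p.2| ≤ 63) &&
      decide (dotL (baseL p.1) (baseL (i + 1, 0)) = p.2)) = true := by decide +kernel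

theorem weights_ok : ((List.range 5).all fun i =>
    let r := classW.getD i ([], [], 0, 0)
    decide (pack128 ((condsOf i).map fun p => baseL p.1) = r.1) &&
      decide (target128 ((condsOf i).map fun p => p.2) = r.2.2.1) &&
      decide (biased 4398046511104 r.1 = r.2.1) && decide (r.1.length = 24) &&
      r.1.all (fun w => decide (|w| ≤ 4398046511104)) &&
      decide (0 < 32 * 4398046511104 + r.2.2.1) &&
      decide ((32 * 4398046511104 + r.2.2.1).toNat = r.2.2.2)) = true := by decide +kernel

theorem count_ok0 : minCount 4398046511104 (classW.getD 0 ([], [], 0, 0)).2.1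
    (tally [(classW.getD 0 ([], [], 0, 0)).2.2.2]) = pack [countOf 0] := by decide +kernel

theorem count_ok1 : minCount 4398046511104 (classW.getD 1 ([], [], 0, 0)).2.1
    (tally [(classW.getD 1 ([], [], 0, 0)).2.2.2]) = pack [countOf 1] := by decide +kernel

theorem count_ok2 : minCount 4398046511104 (classW.getD 2 ([], [], 0, 0)).2.1
    (tally [(classW.getD 2 ([], [], 0, 0)).2.2.2]) = pack [countOf 2] := by decide +kernel

theorem count_ok3 : minCount 4398046511104 (classW.getD 3 ([], [], 0, 0)).2.1
    (tally [(classW.getD 3 ([], [], 0, 0)).2.2.2]) = pack [countOf 3] := by decide +kernel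

theorem count_ok4 : minCount 4398046511104 (classW.getD 4 ([], [], 0, 0)).2.1
    (tally [(classW.getD 4 ([], [], 0, 0)).2.2.2]) = pack [countOf 4] := by decide +kernel

theorem span_ok : (decide (spanScale ≠ 0) && decide (spanMat.length = 24) &&
    (List.range 24).all fun p => (List.range 24).all fun q =>
      decide (((List.range 24).map fun k =>
        (spanMat.getD p []).getD k 0 * (baseL (k / 4, k % 4)).getD q 0).sum =
          if p = q then spanScale else 0)) = true := by decide +kernel

/-- A vector of the base orbits. -/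
def baseVec (p : ℕ × ℕ) : leechLattice :=
  if h : memTest (baseL p) = true then ofList (baseL p) h else 0

theorem baseVec_facts {p : ℕ × ℕ} (h1 : p.1 < 6) (h2 : p.2 < 5) :
    coordVec (baseVec p) = toVec (baseL p) ∧ (baseL p).length = 24 ∧
      sqNorm (toVec (baseL p)) = 32 ∧
      applyM xMat (baseL p) = (baseL (p.1, (p.2 + 1) % 5)).map (8 * ·) := by
  obtain ⟨j, k⟩ := p
  have h := orbits_ok
  simp only [List.all_eq_true, List.mem_range, Bool.and_eq_true, decide_eq_true_eq] at h
  obtain ⟨⟨hm, hn⟩, hx⟩ := h j h1 k h2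
  have hl : (baseL (j, k)).length = 24 := by
    simp only [memTest, Bool.and_eq_true, decide_eq_true_eq] at hm; exact hm.1
  refine ⟨by rw [baseVec, dif_pos hm, coordVec_ofList], hl, ?_, hx⟩
  rw [← dotInt_self, dotInt_toVec hl hl, hn]

variable {X : Co0} (hX : ∀ v : leechLattice, coordVec (X • v) = matAct xMat (coordVec v))

/-- The chain of stabilisers in the centraliser. -/
def chain (X : Co0) : ℕ → Subgroup Co0
  | 0 => Subgroup.centralizer {X}
  | i + 1 => chain X i ⊓ MulAction.stabilizer Co0 (baseVec (i, 0))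

theorem chain_comm : ∀ (i : ℕ) {g : Co0}, g ∈ chain X i → g * X = X * g
  | 0, g, hg => Subgroup.mem_centralizer_singleton_iff.1 hg
  | i + 1, g, hg => chain_comm i hg.1

theorem chain_fix : ∀ (i : ℕ) {g : Co0}, g ∈ chain X i → ∀ j < i,
    g • baseVec (j, 0) = baseVec (j, 0)
  | 0, _, _, j, hj => absurd hj (Nat.not_lt_zero j)
  | i + 1, g, hg, j, hj => by
    rcases Nat.lt_succ_iff_lt_or_eq.1 hj with h | h
    · exact chain_fix i hg.1 j h
    · exact h ▸ MulAction.mem_stabilizer_iff.1 hg.2

include hX

theorem smul_baseVec {j k : ℕ} (hj : j < 6) (hk : k < 5) :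
    X • baseVec (j, k) = baseVec (j, (k + 1) % 5) := by
  obtain ⟨c1, l1, -, hx⟩ := baseVec_facts (p := (j, k)) hj hk
  obtain ⟨c2, l2, -, -⟩ := baseVec_facts (p := (j, (k + 1) % 5)) hj (Nat.mod_lt _ (by norm_num))
  have hs : xMat.length = 24 ∧ ∀ r ∈ xMat, r.length = 24 := by decide +kernel
  refine Subtype.ext ?_
  show coordVec (X • baseVec (j, k)) = coordVec (baseVec (j, (k + 1) % 5))
  rw [hX, c1, c2]
  dsimp only at hx
  funext p
  rw [matAct, matApply_toVec hs.1 hs.2 l1, hx, toVec, toVec,
    List.getD_eq_getElem _ _ (by simp [l2, idx_lt]), List.getD_eq_getElem _ _ (by simp [l2, idx_lt]),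
    List.getElem_map]
  omega

theorem fix_orbit {i j : ℕ} {g : Co0} (hg : g ∈ chain X i) (hj : j < i) (hj6 : j < 6) :
    ∀ k < 5, g • baseVec (j, k) = baseVec (j, k)
  | 0, _ => chain_fix i hg j hj
  | k + 1, hk => by
    have h := fix_orbit hg hj hj6 k (by omega)
    have e : baseVec (j, k + 1) = X • baseVec (j, k) := by
      rw [smul_baseVec hX hj6 (by omega), Nat.mod_eq_of_lt hk]
    rw [e, ← mul_smul, chain_comm i hg, mul_smul, h]

/-- The class containing the next base vector. -/
def classSet (i : ℕ) : Set leechLattice :=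
  {y | sqNorm (coordVec y) = 32 ∧
    ∀ p ∈ condsOf i, dotInt (coordVec (baseVec p.1)) (coordVec y) = p.2}

omit hX in
theorem ncard_classSet {i : ℕ} (hi : i < 5) : (classSet i).ncard = countOf i := by
  have hc := conds_ok
  simp only [List.all_eq_true, List.mem_range, Bool.and_eq_true, decide_eq_true_eq] at hc
  have hw := weights_ok
  simp only [List.all_eq_true, List.mem_range, Bool.and_eq_true, decide_eq_true_eq] at hw
  obtain ⟨⟨⟨⟨⟨⟨hW, hT⟩, hWb⟩, hl⟩, hB⟩, hpos⟩, htb⟩ := hw i hi
  set r := classW.getD i ([], [], 0, 0) with hr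
  have hcount : minCount 4398046511104 r.2.1 (tally [r.2.2.2]) = pack [countOf i] := by
    rw [hr]
    interval_cases i
    exacts [count_ok0, count_ok1, count_ok2, count_ok3, count_ok4]
  have hsmall : countOf i < 1048576 := by
    interval_cases i <;> decide +kernel
  have h := ncard_dots (B := 4398046511104) (W := r.1) (Wb := r.2.1) hWb hl hB [r.2.2.1]
    (by simpa using hpos) (tb := [r.2.2.2]) (by simpa using htb) [countOf i] rfl
    (by simpa using hsmall) hcount
  simp only [List.map_cons, List.map_nil, List.cons.injEq, and_true] at h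
  rw [← h, ncard_mem_sep fun x => sqNorm x = 32 ∧ dotInt (toVec r.1) x = r.2.2.1]
  congr 1
  ext y
  refine and_congr_right fun hy => ?_
  have key := dot_pack128 hy ((condsOf i).map fun p => (baseL p.1, p.2)) (by
    intro q hq
    obtain ⟨p, hp, rfl⟩ := List.mem_map.1 hq
    obtain ⟨⟨⟨a, b⟩, c⟩, -⟩ := hc i hi p hp
    obtain ⟨-, l, n, -⟩ := baseVec_facts (p := p.1) (by omega) b
    exact ⟨l, n, c⟩)
  rw [List.map_map, List.map_map] at key
  simp only [Function.comp_def] at key
  rw [hW, hT] at key
  rw [key, List.forall_mem_map]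
  refine forall₂_congr fun p hp => ?_
  obtain ⟨⟨⟨a, b⟩, -⟩, -⟩ := hc i hi p hp
  rw [(baseVec_facts (p := p.1) (by omega) b).1]

theorem orbit_subset {i : ℕ} (hi : i < 5) :
    orbitSet (chain X (i + 1)) (baseVec (i + 1, 0)) ⊆ classSet i := by
  rintro y ⟨g, hg, rfl⟩
  have hc := conds_ok
  simp only [List.all_eq_true, List.mem_range, Bool.and_eq_true, decide_eq_true_eq] at hc
  obtain ⟨c0, l0, n0, -⟩ := baseVec_facts (p := (i + 1, 0)) (by omega) (by norm_num)
  refine ⟨(sqNorm_smul g _).trans (by rw [← n0, ← c0]), fun p hp => ?_⟩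
  obtain ⟨⟨⟨a, b⟩, -⟩, d⟩ := hc i hi p hp
  obtain ⟨⟨j, k⟩, t⟩ := p
  dsimp only at a b d ⊢
  obtain ⟨c1, l1, -, -⟩ := baseVec_facts (p := (j, k)) (by omega) b
  have hf := fix_orbit hX hg (show j < i + 1 by omega) (by omega) k b
  conv_lhs => rw [← hf]
  show dotInt ((g • baseVec (j, k) : leechLattice) : GolayPt → ℤ)
    ((g • baseVec (i + 1, 0) : leechLattice) : GolayPt → ℤ) = t
  rw [dotInt_smul]
  show dotInt (coordVec (baseVec (j, k))) (coordVec (baseVec (i + 1, 0))) = t
  rw [c1, c0, dotInt_toVec l1 l0, d]

theorem chain_six : chain X 6 = ⊥ := by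
  rw [eq_bot_iff]
  intro g hg
  rw [Subgroup.mem_bot]
  have hs := span_ok
  simp only [List.all_eq_true, List.mem_range, Bool.and_eq_true, decide_eq_true_eq] at hs
  obtain ⟨⟨hne, -⟩, hspan⟩ := hs
  refine Subtype.ext (Equiv.ext fun v => ?_)
  show g • v = v
  set c : ℕ → ℤ := fun k => ∑ p, coordVec v p * (spanMat.getD (idx p) []).getD k 0 with hc
  have e : spanScale • v = ∑ k ∈ Finset.range 24, c k • baseVec (k / 4, k % 4) := by
    refine Subtype.ext ?_
    rw [AddSubgroupClass.coe_zsmul, AddSubmonoidClass.coe_finsetSum]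
    funext q
    rw [Finset.sum_apply]
    have hb : ∀ k ∈ Finset.range 24,
        (↑(c k • baseVec (k / 4, k % 4)) : GolayPt → ℤ) q =
          c k * (baseL (k / 4, k % 4)).getD (idx q) 0 := by
      intro k hk
      rw [Finset.mem_range] at hk
      rw [AddSubgroupClass.coe_zsmul, Pi.smul_apply, smul_eq_mul,
        show ((baseVec (k / 4, k % 4) : leechLattice) : GolayPt → ℤ) =
          toVec (baseL (k / 4, k % 4)) from
          (baseVec_facts (p := (k / 4, k % 4)) (show k / 4 < 6 by omega)
            (show k % 4 < 5 by omega)).1]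
      rfl
    rw [Finset.sum_congr rfl hb, Pi.smul_apply, smul_eq_mul]
    simp only [hc, Finset.sum_mul]
    rw [Finset.sum_comm]
    have hp : ∀ p, ∑ k ∈ Finset.range 24, coordVec v p * (spanMat.getD (idx p) []).getD k 0 *
        (baseL (k / 4, k % 4)).getD (idx q) 0 = if p = q then spanScale * coordVec v p else 0 := by
      intro p
      have h := hspan (idx p) (idx_lt p) (idx q) (idx_lt q)
      rw [← List.sum_toFinset _ List.nodup_range, List.toFinset_range] at h
      rw [Finset.sum_congr rfl fun k _ => mul_assoc _ _ _, ← Finset.mul_sum, h]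
      simp only [CfsgLib.Golay.idx_injective.eq_iff]
      split_ifs with hpq
      · ring
      · ring
    rw [Finset.sum_congr rfl fun p _ => hp p, Finset.sum_ite_eq', if_pos (Finset.mem_univ q)]
  have hg' : g • (spanScale • v) = spanScale • v := by
    rw [e]
    show toAddEquiv g (∑ k ∈ Finset.range 24, c k • baseVec (k / 4, k % 4)) = _
    rw [map_sum]
    refine Finset.sum_congr rfl fun k hk => ?_
    rw [Finset.mem_range] at hk
    rw [map_zsmul]
    exact congrArg (c k • ·) (fix_orbit hX hg (show k / 4 < 6 by omega) (by omega) (k % 4) (by omega))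
  rw [smul_zsmul_co0] at hg'
  refine Subtype.ext (funext fun p => ?_)
  have := congrFun (congrArg Subtype.val hg') p
  simp only [AddSubgroupClass.coe_zsmul, Pi.smul_apply, smul_eq_mul] at this
  exact mul_left_cancel₀ hne this

/-- The centraliser is no larger than the product of the class sizes. -/
theorem natCard_centralizer_le : Nat.card (Subgroup.centralizer ({X} : Set Co0)) ≤ 9828000 := by
  haveI : Finite Co0 := CfsgLib.Leech.finite_Co0
  have hlayer : {v : leechLattice | sqNorm (coordVec v) = 32}.ncard = 196560 := by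
    rw [← ncard_layer_32]
    exact (ncard_mem_sep fun x => sqNorm x = 32).symm
  have h0 : (orbitSet (chain X 0) (baseVec (0, 0))).ncard ≤ 196560 := by
    rw [← hlayer]
    refine Set.ncard_le_ncard (fun y hy => ?_) (Set.finite_of_ncard_pos (by rw [hlayer]; norm_num))
    obtain ⟨g, -, rfl⟩ := hy
    obtain ⟨c, -, n, -⟩ := baseVec_facts (p := (0, 0)) (by norm_num) (by norm_num)
    exact (sqNorm_smul g _).trans (by rw [← n, ← c])
  have step : ∀ i < 5, Nat.card (chain X (i + 1)) ≤ countOf i * Nat.card (chain X (i + 2)) := by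
    intro i hi
    rw [← ncard_orbitSet_mul (chain X (i + 1)) (baseVec (i + 1, 0))]
    have hn := ncard_classSet hi
    have hpos : 0 < countOf i := by interval_cases i <;> decide +kernel
    exact Nat.mul_le_mul_right _ (hn ▸ Set.ncard_le_ncard (orbit_subset hX hi)
      (Set.finite_of_ncard_pos (by rw [hn]; exact hpos)))
  have s := ncard_orbitSet_mul (chain X 0) (baseVec (0, 0))
  have s1 := step 0 (by norm_num)
  have s2 := step 1 (by norm_num)
  have s3 := step 2 (by norm_num)
  have s4 := step 3 (by norm_num)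
  have s5 := step 4 (by norm_num)
  have e : countOf 0 = 25 ∧ countOf 1 = 2 ∧ countOf 2 = 1 ∧ countOf 3 = 1 ∧ countOf 4 = 1 := by
    decide +kernel
  have e6 : Nat.card (chain X (4 + 2)) = 1 := by
    rw [show (4 : ℕ) + 2 = 6 from rfl, chain_six hX, Subgroup.card_bot]
  obtain ⟨a0, a1, a2, a3, a4⟩ := e
  rw [a0] at s1; rw [a1] at s2; rw [a2] at s3; rw [a3] at s4; rw [a4, e6] at s5
  simp only [Nat.reduceAdd] at s s1 s2 s3 s4 s5
  calc Nat.card (Subgroup.centralizer ({X} : Set Co0))
      = (orbitSet (chain X 0) (baseVec (0, 0))).ncard * Nat.card (chain X 1) := s.symm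
    _ ≤ 196560 * Nat.card (chain X 1) := Nat.mul_le_mul_right _ h0
    _ ≤ 9828000 := by omega

end CfsgLib.J2Ico.Section
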