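import Cfsg.Agent.Lib.J2Ico.SectionBase

/-!
The isometry from the icosian lattice onto the Leech lattice and the homomorphism it gives from the
reflection group into the centraliser of an element of order five of `Co0`.
-/

set_option autoImplicit false
set_option maxRecDepth 100000

open scoped Quaternion

namespace CfsgLib.J2Ico.Section

open Cfsg Cfsg.Spor CfsgLib.Leech CfsgLib.J2Ico CfsgLib.Fischer2
open CfsgLib.Golay (idx pt idx_pt pt_idx idx_lt)

/-- The sum of two triples. -/
def vadd (v w : V) : V := ⟨v.x.add w.x, v.y.add w.y, v.z.add w.z⟩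

/-- The negative of a triple. -/
def vneg (v : V) : V := ⟨v.x.neg, v.y.neg, v.z.neg⟩

theorem toV_vadd (v w : V) : (vadd v w).toV = v.toV + w.toV := by
  funext t; fin_cases t <;> simp [V.toV, vadd, Q.toH_add]

theorem toV_vneg (v : V) : (vneg v).toV = -v.toV := by
  funext t; fin_cases t <;> simp [V.toV, vneg, Q.toH_neg]

theorem icoLeech_zero : (0 : H3) ∈ icoLeech := by
  refine ⟨fun t => zero_mem _, ?_, ?_, ?_⟩ <;> exact ⟨0, zero_mem _, by simp⟩

theorem icoLeech_neg {w : H3} (hw : w ∈ icoLeech) : -w ∈ icoLeech := by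
  have h := icoLeech_mul (neg_mem (one_mem icosians)) hw
  have e : (fun t => (-1 : ℍ[ℝ]) * w t) = -w := by funext t; simp
  rwa [e] at h

theorem inLam_vadd {v w : V} (hv : v.inLam = true) (hw : w.inLam = true) :
    (vadd v w).inLam = true :=
  (V.mem_icoLeech _).mp (by
    rw [toV_vadd]; exact icoLeech_add ((V.mem_icoLeech _).mpr hv) ((V.mem_icoLeech _).mpr hw))

theorem inLam_vneg {v : V} (hv : v.inLam = true) : (vneg v).inLam = true :=
  (V.mem_icoLeech _).mp (by rw [toV_vneg]; exact icoLeech_neg ((V.mem_icoLeech _).mpr hv))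

theorem scalar_facts : scalarQ.isIco = true ∧ scalarInv.isIco = true ∧
    scalarInv.mul scalarQ = Q.one ∧ scalarQ.mul scalarInv = Q.one ∧ scalarQ ≠ Q.one ∧
    (((scalarQ.mul scalarQ).mul scalarQ).mul scalarQ).mul scalarQ = Q.one := by
  have h := scalar_ok
  simp only [Bool.and_eq_true, Q.eqb_iff] at h
  obtain ⟨⟨⟨⟨⟨a, b⟩, c⟩, d⟩, e⟩, f⟩ := h
  refine ⟨a, b, c, d, fun h => ?_, f⟩
  rw [Bool.not_eq_true', ← Bool.not_eq_true, Q.eqb_iff] at e
  exact e h

theorem smul_vadd {u : Q} (hu : u.isIco = true) {v w : V} (hv : v.inLam = true)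
    (hw : w.inLam = true) : (vadd v w).smul u = vadd (v.smul u) (w.smul u) := by
  apply V.toV_injective
  rw [(toV_smul hu (inLam_vadd hv hw)).1, toV_vadd, toV_vadd, (toV_smul hu hv).1,
    (toV_smul hu hw).1]
  funext t; simp [mul_add]

theorem smul_vneg {u : Q} (hu : u.isIco = true) {v : V} (hv : v.inLam = true) :
    (vneg v).smul u = vneg (v.smul u) := by
  apply V.toV_injective
  rw [(toV_smul hu (inLam_vneg hv)).1, toV_vneg, toV_vneg, (toV_smul hu hv).1]
  funext t; simp

/-- The coordinates as a vector. -/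
def cvec (v : V) : GolayPt → ℤ := toVec (coords v)

theorem cvec_vadd (v w : V) : cvec (vadd v w) = cvec v + cvec w := by
  funext p
  simp only [cvec, toVec, Pi.add_apply]
  have h := idx_lt p
  generalize idx p = i at h
  interval_cases i <;> rfl

theorem cvec_vneg (v : V) : cvec (vneg v) = -cvec v := by
  funext p
  simp only [cvec, toVec, Pi.neg_apply]
  have h := idx_lt p
  generalize idx p = i at h
  interval_cases i <;> rfl

/-- Twice the image. -/
def raw (v : V) : GolayPt → ℤ := matApply isoMat (cvec v)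

/-- The image in the integer vectors. -/
def phi (v : V) : GolayPt → ℤ := fun p => raw v p / 2

theorem raw_vadd (v w : V) : raw (vadd v w) = raw v + raw w := by
  rw [raw, cvec_vadd, matApply_add]; rfl

theorem raw_vneg (v : V) : raw (vneg v) = -raw v := by
  rw [raw, cvec_vneg, matApply_neg]; rfl

/-- A triple with integral image in the lattice, on which the matrix acts as the scalar. -/
structure GoodV (v : V) : Prop where
  dvd : ∀ p, (2 : ℤ) ∣ raw v p
  mem : phi v ∈ leechLattice
  dvd' : ∀ p, (2 : ℤ) ∣ raw (v.smul scalarQ) p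
  act : matApply xMat (phi v) = fun p => 8 * phi (v.smul scalarQ) p

theorem phi_vadd {v w : V} (hv : ∀ p, (2 : ℤ) ∣ raw v p) : phi (vadd v w) = phi v + phi w := by
  funext p
  simp only [phi, raw_vadd, Pi.add_apply]
  exact Int.add_ediv_of_dvd_left (hv p)

theorem phi_vneg {v : V} (hv : ∀ p, (2 : ℤ) ∣ raw v p) : phi (vneg v) = -phi v := by
  funext p
  simp only [phi, raw_vneg, Pi.neg_apply]
  exact Int.neg_ediv_of_dvd (hv p)

theorem GoodV.add {v w : V} (hv : v.inLam = true) (hw : w.inLam = true) (gv : GoodV v)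
    (gw : GoodV w) : GoodV (vadd v w) where
  dvd p := by rw [raw_vadd]; exact dvd_add (gv.dvd p) (gw.dvd p)
  mem := by rw [phi_vadd gv.dvd]; exact add_mem gv.mem gw.mem
  dvd' p := by
    rw [smul_vadd scalar_facts.1 hv hw, raw_vadd]; exact dvd_add (gv.dvd' p) (gw.dvd' p)
  act := by
    rw [phi_vadd gv.dvd, matApply_add, gv.act, gw.act, smul_vadd scalar_facts.1 hv hw,
      phi_vadd gv.dvd']
    funext p; simp [mul_add]

theorem GoodV.neg {v : V} (hv : v.inLam = true) (gv : GoodV v) : GoodV (vneg v) where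
  dvd p := by rw [raw_vneg]; exact dvd_neg.2 (gv.dvd p)
  mem := by rw [phi_vneg gv.dvd]; exact neg_mem gv.mem
  dvd' p := by rw [smul_vneg scalar_facts.1 hv, raw_vneg]; exact dvd_neg.2 (gv.dvd' p)
  act := by
    rw [phi_vneg gv.dvd, matApply_neg, gv.act, smul_vneg scalar_facts.1 hv, phi_vneg gv.dvd']
    funext p; simp

theorem iso_facts : isoMat.length = 24 ∧ ∀ r ∈ isoMat, r.length = 24 := by
  have h := iso_shape
  simp only [Bool.and_eq_true, decide_eq_true_eq, List.all_eq_true] at h
  exact h

theorem xMat_shape : xMat.length = 24 ∧ ∀ r ∈ xMat, r.length = 24 := by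
  have h := xMat_ok
  simp only [matOk, Bool.and_eq_true, List.all_eq_true, decide_eq_true_eq] at h
  exact ⟨h.1.1.1, h.1.1.2⟩

theorem coords_length (v : V) : (coords v).length = 24 := rfl

theorem raw_toVec (v : V) : raw v = toVec (applyM isoMat (coords v)) :=
  matApply_toVec iso_facts.1 iso_facts.2 (coords_length v)

theorem imgL_length (v : V) : (imgL v).length = 24 := by simp [imgL, applyM, iso_facts.1]

theorem phi_toVec (v : V) : phi v = toVec (imgL v) := by
  funext p
  have hp : idx p < (applyM isoMat (coords v)).length := by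
    simp [applyM, iso_facts.1, idx_lt]
  rw [phi, raw_toVec, imgL, toVec, toVec, List.getD_eq_getElem _ _ hp,
    List.getD_eq_getElem _ _ (by simpa using hp), List.getElem_map]

theorem goodV_of_vecOk {v : V} (h : vecOk v = true) : GoodV v := by
  simp only [vecOk, Bool.and_eq_true, List.all_eq_true, decide_eq_true_eq] at h
  obtain ⟨⟨⟨⟨-, h2⟩, hm⟩, h2'⟩, hx⟩ := h
  have key : ∀ w : V, (∀ a ∈ applyM isoMat (coords w), a % 2 = 0) → ∀ p, (2 : ℤ) ∣ raw w p := by
    intro w hw p
    have hp : idx p < (applyM isoMat (coords w)).length := by simp [applyM, iso_facts.1, idx_lt]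
    rw [raw_toVec, toVec, List.getD_eq_getElem _ _ hp]
    exact Int.dvd_of_emod_eq_zero (hw _ (List.getElem_mem hp))
  refine ⟨key v h2, by rw [phi_toVec]; exact toVec_mem hm, key _ h2', ?_⟩
  rw [phi_toVec, matApply_toVec xMat_shape.1 xMat_shape.2 (imgL_length v), hx]
  funext p
  have hp : idx p < (imgL (v.smul scalarQ)).length := by rw [imgL_length]; exact idx_lt p
  rw [phi_toVec, toVec, toVec, List.getD_eq_getElem _ _ (by simpa using hp),
    List.getD_eq_getElem _ _ hp, List.getElem_map]

theorem goodV_zero : GoodV ⟨Q.zero, Q.zero, Q.zero⟩ := goodV_of_vecOk (by decide +kernel)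

/-- The scalars that carry a lattice vector to good triples. -/
noncomputable def goodScalars (w : H3) (hw : w ∈ icoLeech) : AddSubgroup ℍ[ℝ] where
  carrier := {a | a ∈ icosians ∧ ∀ v : V, v.toV = lsmul a w → GoodV v}
  zero_mem' := ⟨zero_mem _, fun v hv => by
    have : v = ⟨Q.zero, Q.zero, Q.zero⟩ := V.toV_injective (by
      rw [hv]; funext t; fin_cases t <;> simp [V.toV, lsmul])
    rw [this]; exact goodV_zero⟩
  add_mem' := by
    rintro a b ⟨ha, ga⟩ ⟨hb, gb⟩
    refine ⟨add_mem ha hb, fun v hv => ?_⟩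
    obtain ⟨va, hva, ea⟩ := exists_V (icoLeech_mul ha hw)
    obtain ⟨vb, hvb, eb⟩ := exists_V (icoLeech_mul hb hw)
    have : v = vadd va vb := V.toV_injective (by
      rw [hv, toV_vadd, ea, eb]; funext t; simp [lsmul, add_mul])
    rw [this]
    exact GoodV.add hva hvb (ga va ea) (gb vb eb)
  neg_mem' := by
    rintro a ⟨ha, ga⟩
    refine ⟨neg_mem ha, fun v hv => ?_⟩
    obtain ⟨va, hva, ea⟩ := exists_V (icoLeech_mul ha hw)
    have : v = vneg va := V.toV_injective (by
      rw [hv, toV_vneg, ea]; funext t; simp [lsmul])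
    rw [this]
    exact GoodV.neg hva (ga va ea)

theorem good_all {w : H3} (hw : w ∈ icoLeech) :
    w ∈ icoLeech ∧ ∀ a ∈ icosians, ∀ v : V, v.toV = lsmul a w → GoodV v := by
  refine lattice_induction
    (P := fun w => w ∈ icoLeech ∧ ∀ a ∈ icosians, ∀ v : V, v.toV = lsmul a w → GoodV v) ?_ ?_ ?_ hw
  · intro g hg
    have h := List.all_eq_true.mp gens_vecOk g hg
    have hgl : g.inLam = true :=
      List.all_eq_true.mp (show lamGens.all V.inLam = true by decide +kernel) g hg
    have hgm := (V.mem_icoLeech g).mpr hgl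
    refine ⟨hgm, fun a ha v hv => ?_⟩
    obtain ⟨p, hp, rfl⟩ := Q.exists_of_mem_icosians ha
    have hspan : Q.toH p ∈ goodScalars g.toV hgm := by
      refine (AddSubgroup.closure_le (K := goodScalars g.toV hgm)).2 ?_ (Q.mem_span_of_isIco hp)
      rintro _ ⟨b, hb, rfl⟩
      have hbi : b.isIco = true :=
        List.all_eq_true.mp (show Q.basis.all Q.isIco = true by decide +kernel) b hb
      refine ⟨Q.inI_of_isIco hbi, fun v hv => ?_⟩
      have : v = g.smul b := V.toV_injective (by rw [hv, (toV_smul hbi hgl).1]; rfl)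
      rw [this]
      exact goodV_of_vecOk (List.all_eq_true.mp h b hb)
    exact hspan.2 v hv
  · rintro x y ⟨hx, gx⟩ ⟨hy, gy⟩
    refine ⟨icoLeech_add hx hy, fun a ha v hv => ?_⟩
    obtain ⟨vx, hvx, ex⟩ := exists_V (icoLeech_mul ha hx)
    obtain ⟨vy, hvy, ey⟩ := exists_V (icoLeech_mul ha hy)
    have : v = vadd vx vy := V.toV_injective (by
      rw [hv, toV_vadd, ex, ey]; funext t; simp [lsmul, mul_add])
    rw [this]
    exact GoodV.add hvx hvy (gx a ha vx ex) (gy a ha vy ey)
  · rintro b hb x ⟨hx, gx⟩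
    refine ⟨icoLeech_mul hb hx, fun a ha v hv => gx (a * b) (mul_mem ha hb) v ?_⟩
    rw [hv]; funext t; simp [lsmul, mul_assoc]

theorem goodV {v : V} (hv : v.inLam = true) : GoodV v :=
  (good_all ((V.mem_icoLeech v).mpr hv)).2 1 (one_mem _) v (by funext t; simp [lsmul])

/-! ### The norm -/

theorem sqNorm_phi {v : V} (hv : v.inLam = true) : sqNorm (phi v) = 2 * (v.n4.1 + v.n4.2) := by
  have hcol : ∀ q r, dotInt (toVec (colAt isoMat (idx q))) (toVec (colAt isoMat (idx r))) =
      gramEntry (idx q) (idx r) := fun q r => by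
    have h := gram_ok
    simp only [List.all_eq_true, decide_eq_true_eq] at h
    rw [dotInt_toVec (by simp [colAt, iso_facts.1]) (by simp [colAt, iso_facts.1]),
      h (idx q) (List.mem_range.2 (idx_lt q)) (idx r) (List.mem_range.2 (idx_lt r))]
  have hrow : ∀ p q, toVec (isoMat.getD (idx p) []) q = toVec (colAt isoMat (idx q)) p := by
    intro p q
    have hp : idx p < isoMat.length := by rw [iso_facts.1]; exact idx_lt p
    simp only [toVec]
    rw [List.getD_eq_getElem isoMat [] hp,
      List.getD_eq_getElem (colAt isoMat (idx q)) 0 (by simpa [colAt] using hp)]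
    simp [colAt]
  have h4 : dotInt (raw v) (raw v) = 4 * sqNorm (phi v) := by
    have e : raw v = fun p => 2 * phi v p :=
      funext fun p => (Int.mul_ediv_cancel' ((goodV hv).dvd p)).symm
    rw [e, dotInt_mul_mul, dotInt_self]; ring
  have hexp : dotInt (raw v) (raw v) =
      ∑ q, ∑ r, cvec v q * cvec v r * gramEntry (idx q) (idx r) := by
    calc dotInt (raw v) (raw v)
        = ∑ p, (∑ q, toVec (colAt isoMat (idx q)) p * cvec v q) *
            ∑ r, toVec (colAt isoMat (idx r)) p * cvec v r := by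
          simp only [dotInt, raw, matApply, hrow]
      _ = _ := by
          rw [Finset.sum_congr rfl fun p _ => Finset.sum_mul_sum _ _ _ _, Finset.sum_comm]
          refine Finset.sum_congr rfl fun q _ => ?_
          rw [Finset.sum_comm]
          refine Finset.sum_congr rfl fun r _ => ?_
          rw [← hcol q r, dotInt, Finset.mul_sum]
          exact Finset.sum_congr rfl fun p _ => by ring
  have hbound : ∀ i < 24, i + 1 - 2 * (i % 2) < 24 := fun i hi => by omega
  have hinner : ∀ q, ∑ r, cvec v q * cvec v r * gramEntry (idx q) (idx r) =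
      cvec v q * cvec v q * (if idx q % 2 = 0 then 8 else 16) +
        8 * cvec v q * cvec v (pt (idx q + 1 - 2 * (idx q % 2))) := by
    intro q
    set k := idx q + 1 - 2 * (idx q % 2) with hk
    have hk24 : k < 24 := hbound _ (idx_lt q)
    have e2 : ∀ r, idx r = k ↔ r = pt k :=
      fun r => ⟨fun h => by rw [← h, pt_idx], fun h => by rw [h, idx_pt hk24]⟩
    simp only [gramEntry, ← hk, CfsgLib.Golay.idx_injective.eq_iff, e2, mul_add,
      Finset.sum_add_distrib, mul_ite, mul_zero, Finset.sum_ite_eq', Finset.mem_univ, if_true]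
    ring
  rw [hexp, Finset.sum_congr rfl fun q _ => hinner q, sum_eq_sum_range] at h4
  simp only [List.range_succ, List.range_zero, List.nil_append, List.cons_append, List.map_cons,
    List.map_nil, List.sum_cons, List.sum_nil, idx_pt, Nat.reduceLT, cvec, toVec, coords,
    List.getD_cons_zero, List.getD_cons_succ, Nat.reduceMod, Nat.reduceMul, Nat.reduceAdd,
    Nat.reduceSub, reduceIte, one_ne_zero, if_true, if_false] at h4
  simp only [V.n4, J2Ico.n4, sq2]
  linarith

/-! ### The bijection -/

/-- The triple of an element of the icosian lattice. -/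
noncomputable def toTriple (w : icoLeech) : V := (exists_V w.2).choose

theorem toTriple_spec (w : icoLeech) :
    (toTriple w).inLam = true ∧ (toTriple w).toV = (w : H3) := (exists_V w.2).choose_spec

theorem toTriple_eq {w : icoLeech} {v : V} (h : v.toV = (w : H3)) : toTriple w = v :=
  V.toV_injective ((toTriple_spec w).2.trans h.symm)

/-- The map to the Leech lattice. -/
noncomputable def isoFun (w : icoLeech) : leechLattice :=
  ⟨phi (toTriple w), (goodV (toTriple_spec w).1).mem⟩

theorem isoFun_add {x y z : icoLeech} (h : (x : H3) + y = z) :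
    isoFun x + isoFun y = isoFun z := by
  obtain ⟨hx, ex⟩ := toTriple_spec x
  obtain ⟨hy, ey⟩ := toTriple_spec y
  have : toTriple z = vadd (toTriple x) (toTriple y) :=
    toTriple_eq (by rw [toV_vadd, ex, ey, h])
  apply Subtype.ext
  show phi (toTriple x) + phi (toTriple y) = phi (toTriple z)
  rw [this, phi_vadd (goodV hx).dvd]

theorem n4_eq_of_qip {v w : V} (h : qip v.toV v.toV = qip w.toV w.toV) : v.n4 = w.n4 := by
  rw [qip_self, qip_self, Quaternion.coe_inj] at h
  obtain ⟨h1, h2⟩ := Q.coord_inj (a := v.n4.1) (b := v.n4.2) (c := w.n4.1) (d := w.n4.2) (by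
    simp only [Q.coord, val] at h ⊢; linarith)
  exact Prod.ext h1 h2

theorem sqNorm_isoFun_congr {x y : icoLeech} (h : qip (x : H3) x = qip (y : H3) y) :
    sqNorm (coordVec (isoFun x)) = sqNorm (coordVec (isoFun y)) := by
  obtain ⟨hx, ex⟩ := toTriple_spec x
  obtain ⟨hy, ey⟩ := toTriple_spec y
  show sqNorm (phi (toTriple x)) = sqNorm (phi (toTriple y))
  rw [sqNorm_phi hx, sqNorm_phi hy, n4_eq_of_qip (v := toTriple x) (w := toTriple y) (by rwa [ex, ey])]

theorem isoFun_injective : Function.Injective isoFun := by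
  intro x y h
  set d : icoLeech := ⟨(x : H3) + -(y : H3), icoLeech_add x.2 (icoLeech_neg y.2)⟩ with hd
  have h1 : isoFun d + isoFun y = isoFun x :=
    isoFun_add (show (x : H3) + -(y : H3) + y = x by abel)
  rw [h, add_eq_right] at h1
  obtain ⟨hdl, ed⟩ := toTriple_spec d
  have hz : phi (toTriple d) = 0 := congrArg Subtype.val h1
  have hn := sqNorm_phi hdl
  rw [hz, show sqNorm (0 : GolayPt → ℤ) = 0 from sqNorm_eq_zero_iff.2 rfl] at hn
  have hq : qip (d : H3) d = ((val (toTriple d).n4.1 (toTriple d).n4.2 / 4 : ℝ) : ℍ[ℝ]) := by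
    rw [← qip_self, ed]
  obtain ⟨x1, x2⟩ := val_n4_nonneg (toTriple d).x
  obtain ⟨y1, y2⟩ := val_n4_nonneg (toTriple d).y
  obtain ⟨z1, z2⟩ := val_n4_nonneg (toTriple d).z
  have hs5 : Real.sqrt 5 * Real.sqrt 5 = 5 := Real.mul_self_sqrt (by norm_num)
  have hA : ((toTriple d).n4.1 : ℝ) + (toTriple d).n4.2 = 0 := by exact_mod_cast (by omega :
    (toTriple d).n4.1 + (toTriple d).n4.2 = 0)
  have hv : 0 ≤ val (toTriple d).n4.1 (toTriple d).n4.2 := by
    simp only [V.n4, val] at x1 y1 z1 ⊢; push_cast; linarith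
  have hv' : 0 ≤ val' (toTriple d).n4.1 (toTriple d).n4.2 := by
    simp only [V.n4, val'] at x2 y2 z2 ⊢; push_cast; linarith
  have htau : 1 < tau := by
    have : 2 < Real.sqrt 5 := by rw [Real.lt_sqrt (by norm_num)]; norm_num
    unfold tau; linarith
  have hB : ((toTriple d).n4.2 : ℝ) = 0 := by
    simp only [val, val', sig_eq] at hv hv'
    nlinarith
  have hz0 : qip (d : H3) d = 0 := by
    rw [hq, val, hB, show ((toTriple d).n4.1 : ℝ) = 0 by linarith]
    simp
  have hdz : (d : H3) = 0 := by
    simp only [qip, Quaternion.self_mul_star, Fin.sum_univ_three, ← Quaternion.coe_add] at hz0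
    rw [← Quaternion.coe_zero, Quaternion.coe_inj] at hz0
    have n0 := Quaternion.normSq_nonneg (a := (d : H3) 0)
    have n1 := Quaternion.normSq_nonneg (a := (d : H3) 1)
    have n2 := Quaternion.normSq_nonneg (a := (d : H3) 2)
    funext t
    refine Quaternion.normSq_eq_zero.1 ?_
    fin_cases t <;> simp only [Fin.zero_eta, Fin.mk_one, Fin.reduceFinMk] <;> linarith
  exact Subtype.ext (eq_of_sub_eq_zero (by rw [sub_eq_add_neg]; exact hdz))

theorem isoFun_surjective : Function.Surjective isoFun := by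
  intro y
  have h0 : isoFun ⟨0, icoLeech_zero⟩ = 0 :=
    add_eq_right.1 (isoFun_add (x := ⟨0, icoLeech_zero⟩) (y := ⟨0, icoLeech_zero⟩)
      (z := ⟨0, icoLeech_zero⟩) (add_zero 0))
  suffices key : ∀ x ∈ gensSpan, ∃ w, (isoFun w : GolayPt → ℤ) = x by
    obtain ⟨w, hw⟩ := key y (mem_gensSpan y.2)
    exact ⟨w, Subtype.ext hw⟩
  intro x hx
  induction hx using AddSubgroup.closure_induction with
  | mem x hx =>
    obtain ⟨g, hg, rfl⟩ := hx
    obtain ⟨i, hi, rfl⟩ := List.getElem_of_mem hg
    have h := preimages_ok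
    simp only [Bool.and_eq_true, List.all_eq_true, decide_eq_true_eq, List.mem_range] at h
    obtain ⟨⟨e1, e2⟩, e3⟩ := h.2 i hi
    refine ⟨⟨_, (V.mem_icoLeech _).mpr e2⟩, ?_⟩
    show phi (toTriple _) = _
    rw [toTriple_eq (v := ofCoords (preimages.getD i [])) rfl]
    funext p
    have hl : idx p < (gensList[i]).length := by
      rw [length_gensList_mem (List.getElem_mem hi)]; exact idx_lt p
    rw [phi, raw_toVec, e1, e3, List.getD_eq_getElem gensList [] hi, toVec, toVec,
      List.getD_eq_getElem _ _ (by simpa using hl), List.getD_eq_getElem _ _ hl, List.getElem_map]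
    omega
  | zero => exact ⟨_, congrArg Subtype.val h0⟩
  | add a b _ _ ha hb =>
    obtain ⟨u, rfl⟩ := ha; obtain ⟨w, rfl⟩ := hb
    exact ⟨⟨_, icoLeech_add u.2 w.2⟩,
      congrArg Subtype.val (isoFun_add (z := ⟨_, icoLeech_add u.2 w.2⟩) rfl).symm⟩
  | neg a _ ha =>
    obtain ⟨u, rfl⟩ := ha
    refine ⟨⟨_, icoLeech_neg u.2⟩, ?_⟩
    have h := isoFun_add (x := ⟨-(u : H3), icoLeech_neg u.2⟩) (y := u)
      (z := ⟨0, icoLeech_zero⟩) (neg_add_cancel _)
    rw [h0] at h
    exact congrArg Subtype.val (eq_neg_of_add_eq_zero_left h)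

/-- The isometry. -/
noncomputable def iso : icoLeech ≃ leechLattice :=
  Equiv.ofBijective isoFun ⟨isoFun_injective, isoFun_surjective⟩

theorem iso_apply (w : icoLeech) : iso w = isoFun w := rfl

/-- A linear permutation of the icosian lattice transported to the Leech lattice. -/
noncomputable def transport {g : Equiv.Perm icoLeech} (hg : IsLin g) : Co0 :=
  toCo0 ((iso.symm.trans g).trans iso)
    (fun v w => by
      set s : icoLeech := ⟨(iso.symm v : H3) + iso.symm w,
        icoLeech_add (iso.symm v).2 (iso.symm w).2⟩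
      have e : iso.symm (v + w) = s := by
        rw [Equiv.symm_apply_eq, iso_apply, ← isoFun_add (x := iso.symm v) (y := iso.symm w) (z := s) rfl,
          ← iso_apply, ← iso_apply, Equiv.apply_symm_apply, Equiv.apply_symm_apply]
      simp only [Equiv.trans_apply, e, iso_apply]
      exact (isoFun_add (hg.1 _ _ s rfl)).symm)
    (fun v => by
      have h : sqNorm (coordVec (isoFun (g (iso.symm v)))) = sqNorm (coordVec (isoFun (iso.symm v))) :=
        sqNorm_isoFun_congr (hg.2.2 _ _)
      rwa [← iso_apply, ← iso_apply, Equiv.apply_symm_apply] at h)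

theorem transport_smul {g : Equiv.Perm icoLeech} (hg : IsLin g) (w : icoLeech) :
    transport hg • iso w = iso (g w) := by
  show iso (g (iso.symm (iso w))) = _
  rw [Equiv.symm_apply_apply]

theorem ext_iso {a b : Co0} (h : ∀ w, a • iso w = b • iso w) : a = b := by
  refine Subtype.ext (Equiv.ext fun v => ?_)
  have := h (iso.symm v)
  rwa [Equiv.apply_symm_apply] at this

/-- The reflection group inside `Co0`. -/
noncomputable def embed : twoJ2 →* Co0 where
  toFun g := transport (isLin_of_mem g.2)
  map_one' := ext_iso fun w => by rw [transport_smul, one_smul]; rfl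
  map_mul' g h := ext_iso fun w => by
    rw [mul_smul, transport_smul, transport_smul, transport_smul]; rfl

theorem embed_smul (g : twoJ2) (w : icoLeech) : embed g • iso w = iso (g.1 w) :=
  transport_smul (isLin_of_mem g.2) w

theorem embed_injective : Function.Injective embed := fun g h e =>
  Subtype.ext (Equiv.ext fun w => iso.injective (by rw [← embed_smul, ← embed_smul, e]))

/-- The element of order five. -/
noncomputable def xElem : Co0 := matAut xMat xMat_ok

/-- The scalar as a map of the icosian lattice. -/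
noncomputable def scalarMap (w : icoLeech) : icoLeech :=
  ⟨lsmul (Q.toH scalarQ) (w : H3), icoLeech_mul (Q.inI_of_isIco scalar_facts.1) w.2⟩

theorem xElem_smul (w : icoLeech) : xElem • iso w = iso (scalarMap w) := by
  obtain ⟨hv, ev⟩ := toTriple_spec w
  have e : toTriple (scalarMap w) = (toTriple w).smul scalarQ :=
    toTriple_eq (by rw [(toV_smul scalar_facts.1 hv).1, ev]; rfl)
  apply Subtype.ext
  show matAct xMat (phi (toTriple w)) = phi (toTriple (scalarMap w))
  funext p
  rw [e, matAct, (goodV hv).act]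
  simp only []
  omega

theorem commute_xElem (g : twoJ2) : Commute xElem (embed g) := by
  refine ext_iso fun w => ?_
  rw [mul_smul, mul_smul, embed_smul, xElem_smul, xElem_smul, embed_smul]
  congr 1
  exact Subtype.ext ((isLin_of_mem g.2).2.1 _ (Q.inI_of_isIco scalar_facts.1) w (scalarMap w) rfl)

theorem xElem_pow_five : xElem ^ 5 = 1 := by
  have h5 : ∀ w : icoLeech, scalarMap (scalarMap (scalarMap (scalarMap (scalarMap w)))) = w := by
    intro w
    obtain ⟨h1, -, -, -, -, h⟩ := scalar_facts
    have k2 := Q.toH_mul h1 h1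
    have k3 := Q.toH_mul k2.2 h1
    have k4 := Q.toH_mul k3.2 h1
    have k5 := Q.toH_mul k4.2 h1
    have e : Q.toH scalarQ * Q.toH scalarQ * Q.toH scalarQ * Q.toH scalarQ * Q.toH scalarQ = 1 := by
      rw [← k2.1, ← k3.1, ← k4.1, ← k5.1, h, Q.toH_one]
    refine Subtype.ext (funext fun t => ?_)
    show Q.toH scalarQ * (Q.toH scalarQ * (Q.toH scalarQ * (Q.toH scalarQ *
      (Q.toH scalarQ * (w : H3) t)))) = _
    rw [← mul_assoc, ← mul_assoc, ← mul_assoc, ← mul_assoc, e, one_mul]
  refine ext_iso fun w => ?_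
  simp only [pow_succ, pow_zero, one_mul, mul_smul, xElem_smul, h5, one_smul]

theorem xElem_ne_one : xElem ≠ 1 := by
  intro h
  have h1 := xElem_smul (lineElem ⟨0, by norm_num⟩)
  rw [h, one_smul] at h1
  have h2 := congrArg Subtype.val (iso.injective h1)
  have h3 : (lineVec 0).toV = ((lineVec 0).smul scalarQ).toV := by
    rw [(toV_smul scalar_facts.1 (line_spec (by norm_num : (0 : ℕ) < 315)).1).1]; exact h2
  exact absurd (V.toV_injective h3) (by decide +kernel)

theorem orderOf_xElem : orderOf xElem = 5 := by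
  haveI : Fact (Nat.Prime 5) := ⟨by norm_num⟩
  exact orderOf_eq_prime xElem_pow_five xElem_ne_one

end CfsgLib.J2Ico.Section
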