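import Cfsg.Agent.Lib.J2Ico.InvolutionCent
import Cfsg.Agent.Lib.Cores.GenFitting
import Cfsg.Prelude.Def_Classical

/-!
The permutation group of degree 100 has a large extraspecial subgroup of minus type: the centraliser
of an involution, its generalised Fitting subgroup, and a second conjugate inside it.
-/

set_option autoImplicit false
set_option maxRecDepth 100000

namespace CfsgLib.J2Ico.Involution

open CfsgLib.Mathieu CfsgLib.Mathieu.GraphAut CfsgLib.Mathieu.RankThree CfsgLib.Mathieu.J2Cert
  CfsgLib.Mathieu.J2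

theorem moving_check : ((centGens.any fun c => kerCodes.any fun d => kerCodes.all fun q =>
    (List.range 100).any fun x =>
      app7 c (app7 q (app7 d x)) != app7 d (app7 c (app7 q x)))) = true := by decide +kernel

theorem fused_check : ((List.range 315).any fun j =>
    kerCodes.any (fun d => (List.range 100).all fun x =>
      app7 (conjCodes.getD j 0) x == app7 d x) &&
    (List.range 100).any fun x => app7 (conjCodes.getD j 0) x != app7 tCode x) = true := by
  decide +kernel

/-- An element of the centraliser with trivial block action and given code. -/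
theorem exists_ker_code {d : ℕ} (hd : d ∈ kerCodes) : ∃ g : blockHom.ker, ∀ x : Fin 100,
    (((g : Cp) : Equiv.Perm (Fin 100)) x).1 = app7 d x.1 := by
  obtain ⟨g, hg, hgx⟩ := ker_spec ker_ok d hd
  exact ⟨⟨g, hg⟩, hgx⟩

theorem centralizer_ker_le : Subgroup.centralizer (blockHom.ker : Set Cp) ≤ blockHom.ker := by
  haveI : IsSimpleGroup (alternatingGroup (Fin 5)) := by
    exact alternatingGroup.isSimpleGroup (by simp)
  haveI := Subgroup.Normal.map (inferInstance : (Subgroup.centralizer (blockHom.ker : Set Cp)).Normal)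
    blockHom blockHom_surjective
  rcases IsSimpleGroup.eq_bot_or_eq_top_of_normal
    ((Subgroup.centralizer (blockHom.ker : Set Cp)).map blockHom) inferInstance with h | h
  · exact (Subgroup.map_eq_bot_iff _).1 h
  exfalso
  have hm := moving_check
  simp only [List.any_eq_true, List.all_eq_true, List.mem_range, bne_iff_ne] at hm
  obtain ⟨c, hc, d, hd, hm⟩ := hm
  set gc : Cp := ⟨perm7 100 c, perm7_mem_gen7 _ hc⟩
  obtain ⟨gd, hgd⟩ := exists_ker_code hd
  obtain ⟨k, hk, hkc⟩ : blockHom gc ∈ (Subgroup.centralizer (blockHom.ker : Set Cp)).map blockHom :=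
    h ▸ Subgroup.mem_top _
  have hq : gc⁻¹ * k ∈ blockHom.ker := by
    rw [MonoidHom.mem_ker, map_mul, map_inv, hkc, inv_mul_cancel]
  obtain ⟨i, hi⟩ := kerElem_surjective ⟨_, hq⟩
  obtain ⟨x, hx, hne⟩ := hm _ (getD_mem (lt_of_lt_of_eq i.2 ker_length.symm) : kerCodes.getD i.1 0 ∈ kerCodes)
  apply hne
  have hkd : k * (gd : Cp) = (gd : Cp) * k := (Subgroup.mem_centralizer_iff.1 hk _ gd.2).symm
  have hk' : k = gc * (kerElem i : Cp) := by rw [hi]; exact (mul_inv_cancel_left gc k).symm
  rw [hk'] at hkd
  have e := congrArg (fun u : Cp => ((u : Equiv.Perm (Fin 100)) ⟨x, hx⟩).1) hkd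
  have hgc : ∀ y : Fin 100, ((gc : Equiv.Perm (Fin 100)) y).1 = app7 c y.1 := fun y =>
    perm7_apply (centGens_perm c hc) y
  simp only [Subgroup.coe_mul, Equiv.Perm.mul_apply, hgd, hgc, kerElem_val] at e
  exact e

/-- The action of the centraliser in the permutation group on five blocks. -/
noncomputable def centHom : Kp →* alternatingGroup (Fin 5) :=
  blockHom.comp (MulEquiv.ofBijective inclusion inclusion_bijective.1).symm.toMonoidHom

theorem centHom_surjective : Function.Surjective centHom :=
  blockHom_surjective.comp (MulEquiv.ofBijective inclusion inclusion_bijective.1).symm.surjective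

theorem centHom_inclusion (g : Cp) : centHom (inclusion g) = blockHom g := by
  show blockHom ((MulEquiv.ofBijective inclusion inclusion_bijective.1).symm (inclusion g)) = _
  congr 1
  exact (MulEquiv.ofBijective inclusion inclusion_bijective.1).symm_apply_apply g

/-- The kernel upstairs and downstairs. -/
noncomputable def kerEquiv : blockHom.ker ≃* centHom.ker :=
  MulEquiv.ofBijective
    ((inclusion.comp blockHom.ker.subtype).codRestrict centHom.ker fun g => by
      show centHom (inclusion g.1) = 1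
      rw [centHom_inclusion]; exact g.2)
    ⟨fun a b e => Subtype.ext (inclusion_bijective.1.1 (congrArg Subtype.val e)), fun y => by
      obtain ⟨g, hg⟩ := inclusion_bijective.1.2 y.1
      exact ⟨⟨g, MonoidHom.mem_ker.2 (by rw [← centHom_inclusion, hg]; exact y.2)⟩, Subtype.ext hg⟩⟩

theorem kerEquiv_val (g : blockHom.ker) :
    ((((kerEquiv g : centHom.ker) : Kp) : j2Group) : Equiv.Perm (Fin 100)) = ((g : Cp) : Equiv.Perm (Fin 100)) :=
  rfl

theorem isExtraspecial_centHom_ker : Cfsg.IsExtraspecial 2 centHom.ker :=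
  CfsgLib.PGroups.IsExtraspecial.of_mulEquiv kerEquiv isExtraspecial_ker

theorem card_centHom_ker : Nat.card centHom.ker = 2 ^ 5 := by
  rw [← Nat.card_congr kerEquiv.toEquiv, inclusion_bijective.2]; norm_num

theorem centralizer_centHom_ker_le : Subgroup.centralizer (centHom.ker : Set Kp) ≤ centHom.ker := by
  intro y hy
  obtain ⟨g, rfl⟩ := inclusion_bijective.1.2 y
  show centHom (inclusion g) = 1
  rw [centHom_inclusion]
  refine centralizer_ker_le (Subgroup.mem_centralizer_iff.2 fun u hu => inclusion_bijective.1.1 ?_)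
  rw [map_mul, map_mul]
  exact Subgroup.mem_centralizer_iff.1 hy (inclusion u)
    (MonoidHom.mem_ker.2 (by rw [centHom_inclusion]; exact hu))

theorem generalizedFitting_Kp : Cfsg.generalizedFittingSubgroup Kp = centHom.ker := by
  haveI : IsSimpleGroup (alternatingGroup (Fin 5)) := by
    exact alternatingGroup.isSimpleGroup (by simp)
  haveI : Fact (Nat.Prime 2) := ⟨Nat.prime_two⟩
  have hnil : Group.IsNilpotent centHom.ker :=
    (IsPGroup.of_card (p := 2) (n := 5) card_centHom_ker).isNilpotent
  have hle : centHom.ker ≤ Cfsg.fittingSubgroup Kp := CfsgLib.Cores.le_fittingSubgroup hnil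
  haveI := CfsgLib.Cores.fittingSubgroup_normal Kp
  haveI := Subgroup.Normal.map (inferInstance : (Cfsg.fittingSubgroup Kp).Normal) centHom
    centHom_surjective
  have hF : Cfsg.fittingSubgroup Kp = centHom.ker := by
    rcases IsSimpleGroup.eq_bot_or_eq_top_of_normal ((Cfsg.fittingSubgroup Kp).map centHom)
      inferInstance with h | h
    · exact le_antisymm ((Subgroup.map_eq_bot_iff _).1 h) hle
    exfalso
    haveI : Group.IsNilpotent (Cfsg.fittingSubgroup Kp) := CfsgLib.Cores.isNilpotent_fittingSubgroup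
    have hn : Group.IsNilpotent (alternatingGroup (Fin 5)) := by
      refine Group.nilpotent_of_surjective (centHom.comp (Cfsg.fittingSubgroup Kp).subtype) ?_
      intro σ
      obtain ⟨u, hu, e⟩ : σ ∈ (Cfsg.fittingSubgroup Kp).map centHom := h ▸ Subgroup.mem_top σ
      exact ⟨⟨u, hu⟩, e⟩
    have hc := alternatingGroup.center_eq_bot (α := Fin 5) (by simp)
    haveI := hn
    haveI : Nontrivial (alternatingGroup (Fin 5)) := IsSimpleGroup.toNontrivial
    exact absurd hc (Group.IsNilpotent.center_ne_bot _)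
  refine le_antisymm (sup_le ?_ hF.le) (hle.trans le_sup_right)
  refine le_trans ?_ centralizer_centHom_ker_le
  rw [← hF, ← Subgroup.commutator_eq_bot_iff_le_centralizer]
  exact CfsgLib.Cores.commutator_layer_fittingSubgroup

theorem orderOf_t : orderOf (⟨tPerm, tPerm_mem⟩ : j2Group) = 2 := by
  haveI : Fact (Nat.Prime 2) := ⟨Nat.prime_two⟩
  have hinv : ((List.range 100).all fun x => app7 tCode (app7 tCode x) == x) = true := by
    decide +kernel
  simp only [List.all_eq_true, List.mem_range, beq_iff_eq] at hinv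
  have hm := t_moves
  simp only [List.any_eq_true, List.mem_range, bne_iff_ne] at hm
  obtain ⟨x, hx, hne⟩ := hm
  refine orderOf_eq_prime (Subtype.ext (Equiv.ext fun y => Fin.ext ?_)) fun h => hne ?_
  · rw [sq]
    show (tPerm (tPerm y)).1 = y.1
    rw [tPerm, perm7_apply tCode_perm, perm7_apply tCode_perm, hinv y.1 y.2]
  · have := congrArg (fun u : j2Group => ((u : Equiv.Perm (Fin 100)) ⟨x, hx⟩).1) h
    simp only [tPerm, perm7_apply tCode_perm] at this
    exact this

theorem exists_fused : ∃ g : j2Group,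
    (∃ h : g * ⟨tPerm, tPerm_mem⟩ * g⁻¹ ∈ Kp, (⟨_, h⟩ : Kp) ∈ centHom.ker) ∧
      g * ⟨tPerm, tPerm_mem⟩ * g⁻¹ ≠ ⟨tPerm, tPerm_mem⟩ := by
  have hf := fused_check
  simp only [List.any_eq_true, Bool.and_eq_true, List.all_eq_true, List.mem_range, beq_iff_eq,
    bne_iff_ne] at hf
  obtain ⟨j, hj, ⟨d, hd, hjd⟩, x, hx, hne⟩ := hf
  obtain ⟨g, hg, hgx⟩ := exists_conj j hj
  obtain ⟨q, hq⟩ := exists_ker_code hd
  have e : (⟨g, hg⟩ * ⟨tPerm, tPerm_mem⟩ * (⟨g, hg⟩ : j2Group)⁻¹ : j2Group) =
      ((kerEquiv q : Kp) : j2Group) :=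
    Subtype.ext (Equiv.ext fun y => Fin.ext (by
      rw [kerEquiv_val, hq y, ← hjd y.1 y.2]
      exact hgx y))
  refine ⟨⟨g, hg⟩, ⟨e ▸ ((kerEquiv q : centHom.ker) : Kp).2, ?_⟩, fun h => hne ?_⟩
  · have e2 : (⟨_, e ▸ ((kerEquiv q : centHom.ker) : Kp).2⟩ : Kp) = (kerEquiv q : Kp) := Subtype.ext e
    rw [e2]; exact (kerEquiv q).2
  · rw [← hgx ⟨x, hx⟩]
    have := congrArg (fun u : j2Group => ((u : Equiv.Perm (Fin 100)) ⟨x, hx⟩).1) h
    simp only [tPerm, perm7_apply tCode_perm] at this ⊢
    exact this

end CfsgLib.J2Ico.Involution
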