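import Cfsg.Agent.Lib.J2Ico.SectionEmb
import Cfsg.Agent.Lib.J2Ico.SectionBound

/-!
The centraliser of the element of order five modulo that element and the centre is the Hall-Janko
group.
-/

set_option autoImplicit false
set_option maxRecDepth 100000

namespace CfsgLib.J2Ico.Section

open Cfsg Cfsg.Spor CfsgLib.Leech CfsgLib.J2Ico

/-- The subgroup of order five. -/
noncomputable def aGroup : Subgroup Co0 := Subgroup.zpowers xElem

theorem card_aGroup : Nat.card aGroup = 5 := by
  rw [aGroup, Nat.card_zpowers, orderOf_xElem]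

theorem centralizer_aGroup :
    Subgroup.centralizer (aGroup : Set Co0) = Subgroup.centralizer {xElem} := by
  rw [aGroup, Subgroup.zpowers_eq_closure, Subgroup.centralizer_closure]

theorem sup_le_centralizer :
    aGroup ⊔ Subgroup.center Co0 ≤ Subgroup.centralizer (aGroup : Set Co0) := by
  refine sup_le ?_ (Subgroup.center_le_centralizer _)
  rw [centralizer_aGroup, aGroup, Subgroup.zpowers_le, Subgroup.mem_centralizer_singleton_iff]

theorem comm_of_mem_sup {n c : Co0} (hn : n ∈ aGroup ⊔ Subgroup.center Co0)
    (hc : c ∈ Subgroup.centralizer (aGroup : Set Co0)) : c * n = n * c := by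
  have h : aGroup ⊔ Subgroup.center Co0 ≤
      Subgroup.centralizer (Subgroup.centralizer (aGroup : Set Co0) : Set Co0) :=
    sup_le (Subgroup.le_centralizer_iff.1 le_rfl) (Subgroup.center_le_centralizer _)
  exact Subgroup.mem_centralizer_iff.1 (h hn) c hc

theorem card_sup : Nat.card ↥(aGroup ⊔ Subgroup.center Co0) = 10 := by
  haveI : Finite Co0 := CfsgLib.Leech.finite_Co0
  have h5 : 5 ∣ Nat.card ↥(aGroup ⊔ Subgroup.center Co0) :=
    card_aGroup ▸ Subgroup.card_dvd_of_le le_sup_left
  have h2 : 2 ∣ Nat.card ↥(aGroup ⊔ Subgroup.center Co0) :=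
    natCard_center_Co0 ▸ Subgroup.card_dvd_of_le le_sup_right
  have hle : Nat.card ↥(aGroup ⊔ Subgroup.center Co0) ≤ 10 := by
    let f : aGroup × Subgroup.center Co0 → ↥(aGroup ⊔ Subgroup.center Co0) := fun p =>
      ⟨p.1 * p.2, mul_mem (Subgroup.mem_sup_left p.1.2) (Subgroup.mem_sup_right p.2.2)⟩
    have hf : Function.Surjective f := by
      rintro ⟨y, hy⟩
      obtain ⟨a, ha, z, hz, rfl⟩ := Subgroup.mem_sup_of_normal_right.1 hy
      exact ⟨(⟨a, ha⟩, ⟨z, hz⟩), rfl⟩
    refine (Nat.card_le_card_of_surjective f hf).trans ?_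
    rw [Nat.card_prod, card_aGroup, natCard_center_Co0]
  have hpos : 0 < Nat.card ↥(aGroup ⊔ Subgroup.center Co0) := Nat.card_pos
  omega

/-- The subgroup divided out. -/
noncomputable abbrev modGroup : Subgroup ↥(Subgroup.centralizer (aGroup : Set Co0)) :=
  (aGroup ⊔ Subgroup.center Co0).subgroupOf (Subgroup.centralizer (aGroup : Set Co0))

instance normal_modGroup : modGroup.Normal :=
  ⟨fun n hn c => by
    have e : c * n = n * c := Subtype.ext (comm_of_mem_sup (Subgroup.mem_subgroupOf.1 hn) c.2)
    rwa [e, mul_inv_cancel_right]⟩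

/-- The reflection group in the centraliser. -/
noncomputable def toCent : twoJ2 →* Subgroup.centralizer (aGroup : Set Co0) :=
  embed.codRestrict _ fun g => by
    rw [centralizer_aGroup, Subgroup.mem_centralizer_singleton_iff]
    exact (commute_xElem g).eq.symm

/-- The map to the section. -/
noncomputable def toSection : twoJ2 →* ↥(Subgroup.centralizer (aGroup : Set Co0)) ⧸ modGroup :=
  (QuotientGroup.mk' modGroup).comp toCent

theorem ker_le_center : toSection.ker ≤ Subgroup.center twoJ2 := by
  intro g hg
  have h : toCent g ∈ modGroup := (QuotientGroup.eq_one_iff _).1 hg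
  refine Subgroup.mem_center_iff.2 fun k => embed_injective ?_
  rw [map_mul, map_mul]
  exact comm_of_mem_sup (Subgroup.mem_subgroupOf.1 h) (toCent k).2

theorem card_section : Nat.card (↥(Subgroup.centralizer (aGroup : Set Co0)) ⧸ modGroup) ≤ 982800 := by
  haveI : Finite Co0 := CfsgLib.Leech.finite_Co0
  have h := modGroup.card_eq_card_quotient_mul_card_subgroup
  have hm : Nat.card modGroup = 10 := by
    rw [Nat.card_congr (Subgroup.subgroupOfEquivOfLe sup_le_centralizer).toEquiv, card_sup]
  have hb := natCard_centralizer_le (X := xElem) fun v => coordVec_matAut xMat xMat_ok v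
  rw [← centralizer_aGroup] at hb
  rw [hm] at h
  omega

theorem toSection_facts :
    Function.Surjective toSection ∧ toSection.ker = Subgroup.center twoJ2 := by
  haveI : Finite Co0 := CfsgLib.Leech.finite_Co0
  haveI : Finite twoJ2 := Nat.finite_of_card_ne_zero (by rw [natCard_twoJ2]; norm_num)
  have hk : Nat.card toSection.ker ∣ 2 := center_card ▸ Subgroup.card_dvd_of_le ker_le_center
  have hmul : Nat.card toSection.range * Nat.card toSection.ker = 1209600 := by
    rw [← Subgroup.index_ker, Subgroup.index_mul_card, natCard_twoJ2]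
  have hd : Nat.card toSection.range ∣ Nat.card (↥(Subgroup.centralizer (aGroup : Set Co0)) ⧸ modGroup) :=
    toSection.range.card_subgroup_dvd_card
  obtain ⟨m, hm⟩ := hd
  have hle := card_section
  have hpos : 0 < Nat.card (↥(Subgroup.centralizer (aGroup : Set Co0)) ⧸ modGroup) := Nat.card_pos
  have hm1 : 1 ≤ m := by
    rcases m with _ | m
    · simp at hm; omega
    · omega
  rcases (Nat.dvd_prime Nat.prime_two).1 hk with h1 | h2
  · exfalso
    rw [h1, mul_one] at hmul
    rw [hmul] at hm
    omega
  · rw [h2] at hmul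
    have hr : Nat.card toSection.range = 604800 := by omega
    rw [hr] at hm
    refine ⟨MonoidHom.range_eq_top.1 (Subgroup.eq_top_of_card_eq _ ?_),
      Subgroup.eq_of_le_of_card_ge ker_le_center (by rw [center_card, h2])⟩
    rw [hr]; omega

/-- The section is the Hall-Janko group. -/
noncomputable def sectionEquiv :
    Cfsg.Spor.J2 ≃* ↥(Subgroup.centralizer (aGroup : Set Co0)) ⧸ modGroup :=
  (QuotientGroup.quotientMulEquivOfEq toSection_facts.2.symm).trans
    (QuotientGroup.quotientKerEquivOfSurjective toSection toSection_facts.1)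

end CfsgLib.J2Ico.Section
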